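import Cfsg.Agent.Blocks.RegularRank
import Cfsg.Agent.Blocks.ContribMatrix
import Cfsg.Agent.Blocks.QuotientDefect
import Cfsg.Agent.CharBasics.Extra

/-!
# A block of a group with a central element of order `p`

The regular parts of the members trivial at the central element reproduce those of the whole block, up to the factor `p`;
these members are inflated from one block of the quotient, of smaller defect.
-/

set_option autoImplicit false
set_option linter.unusedSectionVars false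
set_option linter.style.haveILetI false

namespace CfsgLib.BrauerFeit

open Cfsg CfsgLib.CharBasics CfsgLib.Blocks
open scoped ComplexConjugate

universe u

variable {H : Type u} [Group H] [Fintype H] {p : ℕ} {M : Ideal AlgInt}

/-- The members of `b` trivial at `y`. -/
noncomputable def trivSet (b : Set (IrrCharacter H)) (y : H) : Finset (IrrCharacter H) := by
  classical exact (memFinset b).filter fun η => (η : H → ℂ) y = (η : H → ℂ) 1

theorem mem_trivSet {b : Set (IrrCharacter H)} {y : H} {η : IrrCharacter H} :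
    η ∈ trivSet b y ↔ η ∈ b ∧ (η : H → ℂ) y = (η : H → ℂ) 1 := by
  classical
  rw [trivSet, Finset.mem_filter, mem_memFinset]

variable {y : H} {b : Set (IrrCharacter H)}

theorem orderOf_mul_central (hy : y ∈ Subgroup.center H) (hord : orderOf y = p) {g : H} (hg : ¬ p ∣ orderOf g) (hp : p.Prime)
    {k : ℕ} (hk : ¬ p ∣ k) : p ∣ orderOf (g * y ^ k) := by
  by_contra h
  have hc : Commute g y := Subgroup.mem_center_iff.1 hy g
  have h1 : orderOf (g⁻¹ * (g * y ^ k)) ∣ Nat.lcm (orderOf g⁻¹) (orderOf (g * y ^ k)) :=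
    (((Commute.refl g).mul_right (hc.pow_right k)).inv_left).orderOf_mul_dvd_lcm
  rw [inv_mul_cancel_left, orderOf_inv,
    Nat.Coprime.orderOf_pow (by rw [hord]; exact hp.coprime_iff_not_dvd.2 hk), hord] at h1
  rcases (Nat.Prime.dvd_mul hp).1 (h1.trans (Nat.lcm_dvd_mul _ _)) with h2 | h2
  · exact hg h2
  · exact h h2

theorem sum_central_powers (hy : y ∈ Subgroup.center H) (hord : orderOf y = p) (ψ : IrrCharacter H)
    [Decidable ((ψ : H → ℂ) y = (ψ : H → ℂ) 1)] (g : H) :
    ∑ k ∈ Finset.range p, (ψ : H → ℂ) (g * y ^ k) =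
      if (ψ : H → ℂ) y = (ψ : H → ℂ) 1 then (p : ℂ) * (ψ : H → ℂ) g else 0 := by
  have h1 := apply_one_ne_zero ψ.2
  have hstep : ∀ z, (ψ : H → ℂ) 1 * (ψ : H → ℂ) (z * y) = (ψ : H → ℂ) y * (ψ : H → ℂ) z := fun z => by
    rw [Subgroup.mem_center_iff.1 hy z]
    exact center_mul ψ.2 hy z
  split_ifs with h
  · have h2 : ∀ z, (ψ : H → ℂ) (z * y) = (ψ : H → ℂ) z := fun z => by
      have := hstep z
      rw [h] at this
      exact mul_left_cancel₀ h1 this
    have h3 : ∀ k, (ψ : H → ℂ) (g * y ^ k) = (ψ : H → ℂ) g := by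
      intro k
      induction k with
      | zero => simp
      | succ k ih => rw [pow_succ, ← mul_assoc, h2, ih]
    rw [Finset.sum_congr rfl fun k _ => h3 k, Finset.sum_const, Finset.card_range, nsmul_eq_mul]
  · have h3 : ∑ k ∈ Finset.range p, (ψ : H → ℂ) (g * y ^ k * y) = ∑ k ∈ Finset.range p, (ψ : H → ℂ) (g * y ^ k) := by
      have e := (Finset.sum_range_succ' (fun k => (ψ : H → ℂ) (g * y ^ k)) p).symm.trans (Finset.sum_range_succ _ p)
      simp only [← hord, pow_orderOf_eq_one, pow_zero, mul_one] at e ⊢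
      simp only [mul_assoc, ← pow_succ]
      exact add_right_cancel e
    have h4 : (ψ : H → ℂ) y * ∑ k ∈ Finset.range p, (ψ : H → ℂ) (g * y ^ k) =
        (ψ : H → ℂ) 1 * ∑ k ∈ Finset.range p, (ψ : H → ℂ) (g * y ^ k) := by
      conv_rhs => rw [← h3]
      rw [Finset.mul_sum, Finset.mul_sum]
      exact Finset.sum_congr rfl fun k _ => (hstep _).symm
    exact (mul_eq_mul_right_iff.1 h4).resolve_left h

/-- The regular part of a member, from the members trivial at `y`. -/
theorem regularPart_central (hM : IsPModular p M) (hy : y ∈ Subgroup.center H) (hord : orderOf y = p)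
    (hb : IsPBlock M b) {η : IrrCharacter H} (hη : η ∈ b) :
    pRegularPart p (η : H → ℂ) = ∑ ζ ∈ trivSet b y,
      ((p : ℂ) * classInner (pRegularPart p (η : H → ℂ)) (ζ : H → ℂ)) • pRegularPart p (ζ : H → ℂ) := by
  classical
  haveI : Fintype (IrrCharacter H) := @Fintype.ofFinite _ finite_irrCharacter
  haveI : Fintype b := Fintype.ofFinite _
  funext g
  simp only [Finset.sum_apply, Pi.smul_apply, smul_eq_mul]
  rw [pRegularPart_eq]
  dsimp only
  simp only [pRegularPart_eq]
  by_cases hg : p ∣ orderOf g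
  · simp [hg]
  simp only [hg, if_false]
  have hexp := regularPart_expand hM hb hη
  have hsum : ∀ z, pRegularPart p (η : H → ℂ) z =
      ∑ ψ ∈ memFinset b, classInner (pRegularPart p (η : H → ℂ)) (ψ : H → ℂ) * (ψ : H → ℂ) z := by
    intro z
    conv_lhs => rw [hexp]
    rw [Finset.sum_apply, Finset.sum_subtype (F := ‹Fintype b›) (memFinset b) (fun x => mem_memFinset)]
    simp
  have hL : ∑ k ∈ Finset.range p, pRegularPart p (η : H → ℂ) (g * y ^ k) = (η : H → ℂ) g := by
    rw [Finset.sum_eq_single 0]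
    · rw [pow_zero, mul_one, pRegularPart_apply, if_neg hg]
    · intro k hk hk0
      rw [pRegularPart_apply, if_pos (orderOf_mul_central hy hord hg hM.1 fun h =>
        hk0 (Nat.eq_zero_of_dvd_of_lt h (Finset.mem_range.1 hk)))]
    · exact fun h => absurd (Finset.mem_range.2 hM.1.pos) h
  rw [← hL, Finset.sum_congr rfl fun k _ => hsum _, Finset.sum_comm, trivSet, Finset.sum_filter]
  refine Finset.sum_congr rfl fun ψ _ => ?_
  rw [← Finset.mul_sum, sum_central_powers hy hord]
  split_ifs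
  · rw [← pRegularPart_eq]; ring
  · rw [mul_zero]

/-- The multiplicity of a member in a regular part. -/
theorem classInner_regularPart_eq (hp : p.Prime) (ξ η : IrrCharacter H) :
    classInner (pRegularPart p (ξ : H → ℂ)) (η : H → ℂ) =
      (regInt p (ξ : H → ℂ) (η : H → ℂ) : ℂ) / (p : ℂ) ^ (Nat.card H).factorization p := by
  have h := regSum_eq_regInt hp (isCharacter_of_irr ξ.2) (isCharacter_of_irr η.2)
  have hm := ordCompl_ne_zero_cast (G := H) p
  have hp0 : (p : ℂ) ≠ 0 := Nat.cast_ne_zero.2 hp.ne_zero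
  have hcard : (Nat.card H : ℂ) = (p : ℂ) ^ (Nat.card H).factorization p *
      ((Nat.card H / p ^ (Nat.card H).factorization p : ℕ) : ℂ) := by
    rw [← Nat.cast_pow, ← Nat.cast_mul, Nat.ordProj_mul_ordCompl_eq_self]
  have e : ∑ g : H, pRegularPart p (ξ : H → ℂ) g * conj ((η : H → ℂ) g) = regSum p (ξ : H → ℂ) (η : H → ℂ) := by
    refine Finset.sum_congr rfl fun g _ => ?_
    rw [pRegularPart_apply]
    split_ifs <;> simp
  rw [classInner, e, h, hcard]
  field_simp

theorem regInt_central (hM : IsPModular p M) (hy : y ∈ Subgroup.center H) (hord : orderOf y = p)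
    (hb : IsPBlock M b) {ξ : IrrCharacter H} (hξ : ξ ∈ b) (η : IrrCharacter H) :
    (p : ℤ) ^ (Nat.card H).factorization p * regInt p (ξ : H → ℂ) (η : H → ℂ) =
      (p : ℤ) * ∑ ζ ∈ trivSet b y, regInt p (ξ : H → ℂ) (ζ : H → ℂ) * regInt p (ζ : H → ℂ) (η : H → ℂ) := by
  have h := congrArg (fun f => classInner f (η : H → ℂ)) (regularPart_central hM hy hord hb hξ)
  simp only [classInner_sum_left, classInner_smul_left, classInner_regularPart_eq hM.1] at h
  have hp0 : (p : ℂ) ^ (Nat.card H).factorization p ≠ 0 := pow_ne_zero _ (Nat.cast_ne_zero.2 hM.1.ne_zero)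
  have h2 : (((p : ℤ) ^ (Nat.card H).factorization p * regInt p (ξ : H → ℂ) (η : H → ℂ) : ℤ) : ℂ) =
      (((p : ℤ) * ∑ ζ ∈ trivSet b y, regInt p (ξ : H → ℂ) (ζ : H → ℂ) * regInt p (ζ : H → ℂ) (η : H → ℂ) : ℤ) : ℂ) := by
    push_cast
    rw [div_eq_iff hp0, Finset.sum_mul] at h
    rw [h, Finset.mul_sum, Finset.mul_sum]
    refine Finset.sum_congr rfl fun ζ _ => ?_
    field_simp
  exact_mod_cast h2

theorem regInt_trace (hM : IsPModular p M) (hy : y ∈ Subgroup.center H) (hord : orderOf y = p)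
    (hb : IsPBlock M b) :
    (p : ℤ) ^ (Nat.card H).factorization p * blockRank p b =
      (p : ℤ) * ∑ ζ ∈ trivSet b y, regInt p (ζ : H → ℂ) (ζ : H → ℂ) := by
  classical
  haveI : Fintype (IrrCharacter H) := @Fintype.ofFinite _ finite_irrCharacter
  haveI : Fintype b := Fintype.ofFinite _
  set a := (Nat.card H).factorization p
  have hp0 : (p : ℤ) ^ a ≠ 0 := pow_ne_zero _ (Int.natCast_ne_zero.2 hM.1.ne_zero)
  have h1 : (blockRank p b : ℤ) * (p : ℤ) ^ a = ∑ ξ ∈ memFinset b, regInt p (ξ : H → ℂ) (ξ : H → ℂ) := by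
    have h := blockRank_eq_trace hM hb
    rw [← Finset.sum_subtype (memFinset b) (fun x => mem_memFinset)
      (fun χ : IrrCharacter H => classInner (pRegularPart p (χ : H → ℂ)) (χ : H → ℂ))] at h
    simp only [classInner_regularPart_eq hM.1, ← Finset.sum_div] at h
    rw [eq_div_iff (pow_ne_zero _ (Nat.cast_ne_zero.2 hM.1.ne_zero))] at h
    exact_mod_cast h
  refine mul_left_cancel₀ hp0 ?_
  calc (p : ℤ) ^ a * ((p : ℤ) ^ a * blockRank p b)
      = ∑ ξ ∈ memFinset b, (p : ℤ) ^ a * regInt p (ξ : H → ℂ) (ξ : H → ℂ) := by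
        rw [← Finset.mul_sum, ← h1]; ring
    _ = (p : ℤ) * ∑ ζ ∈ trivSet b y, ∑ ξ ∈ memFinset b, regInt p (ζ : H → ℂ) (ξ : H → ℂ) ^ 2 := by
        rw [Finset.sum_congr rfl fun ξ hξ => regInt_central hM hy hord hb (mem_memFinset.1 hξ) ξ,
          ← Finset.mul_sum, Finset.sum_comm]
        congr 1
        exact Finset.sum_congr rfl fun ζ _ => Finset.sum_congr rfl fun ξ _ => by rw [regInt_comm hM.1 ξ ζ]; ring
    _ = _ := by
        rw [Finset.mul_sum, Finset.mul_sum, Finset.mul_sum]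
        refine Finset.sum_congr rfl fun ζ hζ => ?_
        rw [Finset.sum_subset (Finset.subset_univ _) fun ξ _ hξ => by
          rw [regInt_eq_zero_of_notMem hM hb (mem_trivSet.1 hζ).1 (fun h => hξ (mem_memFinset.2 h))]; ring,
          sum_regInt_sq hM.1]
        ring

theorem blockRank_le_trivSet (hM : IsPModular p M) (hy : y ∈ Subgroup.center H) (hord : orderOf y = p)
    (hb : IsPBlock M b) : blockRank p b ≤ (trivSet b y).card := by
  classical
  rw [blockRank]
  refine le_trans (Submodule.finrank_mono ?_) ((finrank_span_finset_le_card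
    ((trivSet b y).image fun ζ : IrrCharacter H => pRegularPart p (ζ : H → ℂ))).trans Finset.card_image_le)
  rw [Submodule.span_le]
  rintro _ ⟨η, hη, rfl⟩
  show pRegularPart p (η : H → ℂ) ∈ _
  rw [regularPart_central hM hy hord hb hη]
  exact Submodule.sum_mem _ fun ζ hζ => Submodule.smul_mem _ _
    (Submodule.subset_span (Finset.mem_coe.2 (Finset.mem_image_of_mem _ hζ)))

variable {ξ₀ : IrrCharacter H}

/-- The regular product divided by the least power of `p` in a degree. -/
noncomputable def scaled (p v : ℕ) (ξ η : IrrCharacter H) : ℤ := regInt p (ξ : H → ℂ) (η : H → ℂ) / (p : ℤ) ^ v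

theorem pow_mul_scaled (hM : IsPModular p M) (hmin : ∀ ρ ∈ b, degExp p ξ₀ ≤ degExp p ρ) {ξ : IrrCharacter H}
    (hξ : ξ ∈ b) (η : IrrCharacter H) :
    (p : ℤ) ^ degExp p ξ₀ * scaled p (degExp p ξ₀) ξ η = regInt p (ξ : H → ℂ) (η : H → ℂ) :=
  Int.mul_ediv_cancel' ((pow_dvd_pow _ (hmin ξ hξ)).trans (pow_dvd_regInt hM ξ η))

theorem scaled_proj (hM : IsPModular p M) (hy : y ∈ Subgroup.center H) (hord : orderOf y = p)
    (hb : IsPBlock M b) (hmin : ∀ ρ ∈ b, degExp p ξ₀ ≤ degExp p ρ) {d : ℕ}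
    (hd : (Nat.card H).factorization p = degExp p ξ₀ + (d + 1)) {ξ : IrrCharacter H} (hξ : ξ ∈ b)
    (η : IrrCharacter H) :
    ∑ ζ ∈ trivSet b y, scaled p (degExp p ξ₀) ξ ζ * scaled p (degExp p ξ₀) ζ η =
      (p : ℤ) ^ d * scaled p (degExp p ξ₀) ξ η := by
  have h := regInt_central hM hy hord hb hξ η
  have hp0 : (p : ℤ) ≠ 0 := Int.natCast_ne_zero.2 hM.1.ne_zero
  rw [← pow_mul_scaled hM hmin hξ η, hd, Finset.sum_congr rfl fun ζ hζ => by
    rw [← pow_mul_scaled hM hmin hξ ζ, ← pow_mul_scaled hM hmin (mem_trivSet.1 hζ).1 η]] at h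
  refine mul_left_cancel₀ (mul_ne_zero hp0 (pow_ne_zero (2 * degExp p ξ₀) hp0)) ?_
  rw [Finset.mul_sum]
  rw [Finset.mul_sum] at h
  calc ∑ ζ ∈ trivSet b y, (p : ℤ) * (p : ℤ) ^ (2 * degExp p ξ₀) *
        (scaled p (degExp p ξ₀) ξ ζ * scaled p (degExp p ξ₀) ζ η) = _ := Finset.sum_congr rfl fun ζ _ => by ring
    _ = _ := h.symm
    _ = _ := by ring

theorem scaled_trace (hM : IsPModular p M) (hy : y ∈ Subgroup.center H) (hord : orderOf y = p)
    (hb : IsPBlock M b) (hmin : ∀ ρ ∈ b, degExp p ξ₀ ≤ degExp p ρ) {d : ℕ}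
    (hd : (Nat.card H).factorization p = degExp p ξ₀ + (d + 1)) :
    ∑ ζ ∈ trivSet b y, scaled p (degExp p ξ₀) ζ ζ = (p : ℤ) ^ d * blockRank p b := by
  have h := regInt_trace hM hy hord hb
  have hp0 : (p : ℤ) ≠ 0 := Int.natCast_ne_zero.2 hM.1.ne_zero
  rw [hd, Finset.sum_congr rfl fun ζ hζ => (pow_mul_scaled hM hmin (mem_trivSet.1 hζ).1 ζ).symm, ← Finset.mul_sum] at h
  refine mul_left_cancel₀ (mul_ne_zero hp0 (pow_ne_zero (degExp p ξ₀) hp0)) ?_
  rw [mul_assoc (p : ℤ), ← h]
  ring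

/-- The members trivial at `y` come from one block of the quotient, of smaller defect. -/
theorem exists_quotient_block (hM : IsPModular p M) (hy : y ∈ Subgroup.center H) (hord : orderOf y = p)
    (hb : IsPBlock M b) [(Subgroup.zpowers y).Normal] (hne : (trivSet b y).Nonempty) :
    ∃ c : Set (IrrCharacter (H ⧸ Subgroup.zpowers y)), IsPBlock M c ∧
      blockDefect p c + 1 ≤ blockDefect p b ∧ (trivSet b y).card ≤ Nat.card c := by
  classical
  set Z := Subgroup.zpowers y with hZ
  haveI : Fintype (H ⧸ Z) := Fintype.ofFinite _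
  haveI : Fintype (IrrCharacter (H ⧸ Z)) := @Fintype.ofFinite _ finite_irrCharacter
  have hlift : ∀ ζ ∈ trivSet b y, ∃ φ : IrrCharacter (H ⧸ Z), inflChar φ = ζ := by
    intro ζ hζ
    obtain ⟨φ, hφ⟩ := exists_quotient_irr ζ Z fun g hg => by
      obtain ⟨k, rfl⟩ := mem_powers_iff_mem_zpowers.2 hg
      clear hg
      beta_reduce
      induction k with
      | zero => simp
      | succ k ih =>
        have h := center_mul ζ.2 hy (y ^ k)
        rw [← pow_succ', (mem_trivSet.1 hζ).2, ih] at h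
        exact mul_left_cancel₀ (apply_one_ne_zero ζ.2) h
    exact ⟨φ, Subtype.ext (funext hφ)⟩
  obtain ⟨ζ₀, hζ₀⟩ := hne
  obtain ⟨φ₀, hφ₀⟩ := hlift ζ₀ hζ₀
  set c := blockOf M (φ₀ : H ⧸ Z → ℂ) with hc
  have hcb : IsPBlock M c := isPBlock_blockOf M φ₀
  have hsub : InflatesInto Z c b := inflatesInto_blockOf hM hb (by rw [hφ₀]; exact (mem_trivSet.1 hζ₀).1)
  let z : MonoidAlgebra ℂ H := ofFun fun g => if p ∣ orderOf g then 0 else blockCoeff c (g : H ⧸ Z)
  have hzc : IsClassElt z := by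
    intro g h
    have e : orderOf (h * g * h⁻¹) = orderOf g :=
      orderOf_injective (MulAut.conj h).toMonoidHom (MulAut.conj h).injective g
    have e2 : blockCoeff c ((h * g * h⁻¹ : H) : H ⧸ Z) = blockCoeff c (g : H ⧸ Z) := by
      rw [← coeff_blockElt, ← coeff_blockElt]
      exact isClassElt_blockElt c (g : H ⧸ Z) (h : H ⧸ Z)
    simp only [z, coeff_ofFun, e, e2]
  have hzi : IsIntegralElt M z := fun g => by
    simp only [z, coeff_ofFun]
    split_ifs
    · exact memLocalRing_zero hM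
    · exact memLocalRing_blockCoeff hM hcb _
  have hcard : Nat.card Z = p := by rw [hZ, Nat.card_zpowers, hord]
  have hω : ∀ φ : IrrCharacter (H ⧸ Z), omega (inflChar φ : H → ℂ) z = if φ ∈ c then 1 else 0 := by
    intro φ
    rw [← omega_blockElt c φ, inflChar_coe]
    simp only [omega, z, coeff_ofFun, coeff_blockElt, Function.comp_apply, QuotientGroup.mk_one, ite_mul, zero_mul]
    congr 1
    have hr : ∀ q : H ⧸ Z, p ∣ orderOf q → blockCoeff c q * (φ : H ⧸ Z → ℂ) q = 0 := fun q hq => by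
      rw [blockCoeff_eq_zero hM hcb hq, zero_mul]
    rw [← Finset.sum_filter_of_ne (p := fun q => ¬ p ∣ orderOf q) fun q _ hq h => hq (hr q h),
      Finset.sum_ite, Finset.sum_const_zero, zero_add]
    refine Finset.sum_bij (fun g _ => (g : H ⧸ Z)) (fun g hg => ?_) (fun g hg g' hg' h => ?_) (fun q hq => ?_)
      fun _ _ => rfl
    · exact Finset.mem_filter.2 ⟨Finset.mem_univ _, fun h =>
        (Finset.mem_filter.1 hg).2 (h.trans (orderOf_map_dvd (QuotientGroup.mk' Z) g))⟩
    · obtain ⟨k, hk⟩ := mem_powers_iff_mem_zpowers.2 (show g⁻¹ * g' ∈ Z from QuotientGroup.eq.1 h)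
      simp only at hk
      by_contra hne
      refine (Finset.mem_filter.1 hg').2 ?_
      rw [show g' = g * y ^ k by rw [hk, mul_inv_cancel_left]]
      refine orderOf_mul_central hy hord (Finset.mem_filter.1 hg).2 hM.1 fun hd => hne ?_
      rw [← hord, orderOf_dvd_iff_pow_eq_one] at hd
      rwa [hd, eq_comm, inv_mul_eq_one] at hk
    · obtain ⟨g, rfl⟩ := QuotientGroup.mk_surjective q
      set e := (orderOf g).factorization p
      set m := orderOf g / p ^ e with hm
      have hq' := (Finset.mem_filter.1 hq).2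
      have hcop : Nat.Coprime (p ^ e) (orderOf (g : H ⧸ Z)) :=
        Nat.Coprime.pow_left _ (hM.1.coprime_iff_not_dvd.2 hq')
      obtain ⟨i, hi⟩ : ∃ i, p ^ e * i ≡ 1 [MOD orderOf (g : H ⧸ Z)] := by
        obtain ⟨i, hi⟩ := exists_pow_eq_self_of_coprime (x := (g : H ⧸ Z)) (n := p ^ e) hcop
        exact ⟨i, by
          rw [← pow_mul] at hi
          simpa using pow_eq_pow_iff_modEq.1 (hi.trans (pow_one _).symm)⟩
      refine ⟨g ^ (p ^ e * i), Finset.mem_filter.2 ⟨Finset.mem_univ _, fun hd => ?_⟩, ?_⟩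
      · have h1 : orderOf (g ^ (p ^ e * i)) ∣ m := by
          refine orderOf_dvd_of_pow_eq_one ?_
          rw [← pow_mul, show p ^ e * i * m = p ^ e * m * i by ring, hm, Nat.ordProj_mul_ordCompl_eq_self,
            pow_mul, pow_orderOf_eq_one, one_pow]
        exact Nat.not_dvd_ordCompl hM.1 (orderOf_pos g).ne' (hd.trans h1)
      · rw [QuotientGroup.mk_pow, pow_eq_pow_iff_modEq.2 hi, pow_one]
  have hin : ∀ ζ ∈ trivSet b y, ∃ φ ∈ c, inflChar φ = ζ := by
    intro ζ hζ
    obtain ⟨φ, hφ⟩ := hlift ζ hζ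
    refine ⟨φ, by_contra fun hn => ?_, hφ⟩
    have h := omega_sub_mem_of_sameBlock hM ((IsPBlock.mem_iff hM hb (mem_trivSet.1 hζ).1).1 (mem_trivSet.1 hζ₀).1)
      hzc hzi
    rw [← hφ, ← hφ₀, hω, hω, if_neg hn, if_pos (mem_blockOf_self hM φ₀)] at h
    exact not_memLocalIdeal_one hM (by simpa using memLocalIdeal_neg h)
  choose f hf hf' using hin
  refine ⟨c, hcb, ?_, ?_⟩
  · obtain ⟨ψ, hψ, -, hψs⟩ := exists_min_degExp hM hcb
    obtain ⟨ξ, hξ, hmin, hξs⟩ := exists_min_degExp hM hb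
    rw [blockDefect_eq hψs, blockDefect_eq hξs]
    have h1 : Nat.card H = Nat.card (H ⧸ Z) * p := hcard ▸ Subgroup.card_eq_card_quotient_mul_card_subgroup Z
    have h2 : (Nat.card H).factorization p = (Nat.card (H ⧸ Z)).factorization p + 1 := by
      rw [h1, Nat.factorization_mul Nat.card_pos.ne' hM.1.ne_zero, Finsupp.add_apply, hM.1.factorization_self]
    have h3 : degExp p ξ ≤ degExp p ψ := by
      have h := hmin _ (hsub ψ hψ)
      have e : degExp p (inflChar ψ) = degExp p ψ := by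
        simp [degExp, charDegree, inflChar_coe, QuotientGroup.mk_one]
      rwa [e] at h
    have h4 := degExp_le hM.1 ψ
    omega
  · rw [← Fintype.card_coe, ← Nat.card_eq_fintype_card]
    refine Nat.card_le_card_of_injective (fun ζ : trivSet b y => (⟨f ζ.1 ζ.2, hf ζ.1 ζ.2⟩ : c)) fun ζ ζ' h => ?_
    have h' : f ζ.1 ζ.2 = f ζ'.1 ζ'.2 := congrArg Subtype.val h
    exact Subtype.ext ((hf' ζ.1 ζ.2).symm.trans ((congrArg inflChar h').trans (hf' ζ'.1 ζ'.2)))

end CfsgLib.BrauerFeit
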