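import Cfsg.Agent.BrauerFeit.StarVirtual
import Cfsg.Agent.Blocks.NilBlock.Contrib
import Cfsg.Agent.Blocks.NilBlock.Induction
import Cfsg.Agent.Blocks.PairAlg.Local
import Cfsg.Agent.S4650

/-!
# Rank one modulo the order of a defect group on which the inertial quotient acts freely

The products of a member with the stable functions induced from the linear characters have local multiplicities;
these are the Fourier coefficients of the contributions, which on the non-identity elements factor.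
-/

set_option autoImplicit false
set_option linter.unusedSectionVars false
set_option linter.style.haveILetI false

namespace CfsgLib.BrauerFeit

open Cfsg CfsgLib CfsgLib.Blocks CfsgLib.CharBasics CfsgLib.PairAlg CfsgLib.NilBlock CfsgLib.Star
open scoped ComplexConjugate

attribute [local instance] CfsgLib.Blocks.residueField CfsgLib.Blocks.residue_charP

universe u

variable {p : ℕ} [Fact p.Prime] {M : Ideal AlgInt} {G : Type u} [Group G] [Fintype G]

noncomputable local instance instFintypeSubgroupFreeCore (K : Subgroup G) : Fintype K := Fintype.ofFinite K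

noncomputable local instance instFintypeQuotFreeCore (K : Subgroup G) (L : Subgroup K) : Fintype (K ⧸ L) :=
  Fintype.ofFinite _

variable (hM : IsPModular p M) {B : Set (IrrCharacter G)} {P : Subgroup G}
  {c : Set (IrrCharacter (Subgroup.centralizer (P : Set G)))}

include hM

/-- A move between elements below an abelian maximal pair is realized by its stabilizer. -/
theorem exists_move_stab (hmax : IsMaximalBrauerPair p M B P c)
    (hab : ∀ x ∈ P, ∀ y ∈ P, x * y = y * x) {x h : G} {a : MonoidAlgebra (Residue hM) G}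
    (ha : LE' p ⊤ (Subgroup.zpowers x) a P (bc hM P c))
    (hb : LE' p ⊤ (cm h (Subgroup.zpowers x)) (PairAlg.cj h a) P (bc hM P c)) :
    ∃ t ∈ stab P (bc hM P c), t * x * t⁻¹ = h * x * h⁻¹ := by
  have hc := complete (G := G) hM
  have hm := isMax_bc hM hmax
  have hpe := isPair_bc hM hmax.1.1
  set Q := Subgroup.zpowers x
  have hPC : ∀ R : Subgroup G, R ≤ P → P ≤ Subgroup.centralizer (R : Set G) := fun R hR u hu =>
    Subgroup.mem_centralizer_iff.2 fun q hq => (hab u hu q (hR hq)).symm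
  have hQ' := hb.subgroup_le
  have hN : P ⊓ Subgroup.normalizer (cm h Q : Set G) = P :=
    inf_eq_left.2 ((hPC _ hQ').trans (centralizer_le_normalizer _))
  have hfull : Nat.card ↥(P ⊓ Subgroup.normalizer (cm h Q : Set G)) =
      dmax p (stab (cm h Q) (PairAlg.cj h a)) (PairAlg.cj h a) := by
    rw [hN]
    refine le_antisymm ?_ ?_
    · refine le_dmax hpe.isP ((le_inf le_rfl ((hPC _ hQ').trans (centralizer_le_normalizer _))).trans
        (normalizer_le_stab hc hm hb)) ?_
      have := br_normalizer_ne hc hm hb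
      rwa [hN] at this
    · obtain ⟨y, -, hy⟩ := exists_full hc hm hb (K := stab (cm h Q) (PairAlg.cj h a)) le_rfl
      rw [← hy]
      exact Subgroup.card_le_of_le inf_le_left
  have hs := (LE'.nstep hc hpe ha ((hPC Q ha.subgroup_le).trans (centralizer_le_normalizer _))).cj h
  obtain ⟨d, hd, hle⟩ := exists_extension hc hm hb hfull hs (le_sup_of_le_right (by
    rw [← cm_centralizer]; exact cm_mono (hPC Q ha.subgroup_le)))
  rw [cm_cm, cj_cj] at hle
  have heq : cm (d * h) P = P := Subgroup.eq_of_le_of_card_ge hle.subgroup_le (card_cm _ _).ge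
  rw [heq] at hle
  refine ⟨d * h, ⟨mem_normalizer_of_cm heq, below_unique hc hpe hle LE'.refl⟩, ?_⟩
  have : h * x * h⁻¹ ∈ cm h Q := conj_mem_cm.2 (Subgroup.mem_zpowers x)
  calc d * h * x * (d * h)⁻¹ = d * (h * x * h⁻¹) * d⁻¹ := by group
    _ = _ := by rw [← Subgroup.mem_centralizer_iff.1 hd _ this, mul_inv_cancel_right]

/-- The block below an element of an abelian defect group has that group as defect group. -/
theorem isDefectGroup_belb (hmax : IsMaximalBrauerPair p M B P c) (hab : ∀ x ∈ P, ∀ y ∈ P, x * y = y * x)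
    {x : G} (hx : x ∈ P) : IsDefectGroup p M (belb hM hmax x) (P.subgroupOf (cen x)) := by
  have hcp := complete (G := G) hM
  have hm := isMax_bc hM hmax
  have hpe := isPair_bc hM hmax.1.1
  obtain ⟨-, hb, hle⟩ := belb_spec hM hmax hx
  set b := belb hM hmax x
  have hPQ : P ≤ Subgroup.centralizer (Subgroup.zpowers x : Set G) := fun u hu =>
    Subgroup.mem_centralizer_iff.2 fun q hq => (hab u hu q (hle.subgroup_le hq)).symm
  have hPC : P ≤ cen x := (centralizer_zpowers_eq x) ▸ hPQ
  refine (isDefectGroup_sub_iff hM hb hmax.1.1.1 hPC).2 ?_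
  have hK : cen x ≤ Subgroup.normalizer (Subgroup.zpowers x : Set G) := by
    rw [← centralizer_zpowers_eq]; exact centralizer_le_normalizer _
  have hbr : Br P (bb hM x b) ≠ 0 := by
    have := br_inf_ne hcp hm hle hK
    rwa [inf_eq_left.2 hPC] at this
  refine ⟨hbr, le_antisymm (le_dmax hpe.isP hPC hbr) ?_⟩
  have hKs : cen x ≤ stab (Subgroup.zpowers x) (bb hM x b) := by
    rw [← centralizer_zpowers_eq]; exact centralizer_le_stab (hle.isPair hpe)
  obtain ⟨y, -, hy⟩ := exists_full hcp hm hle (K := cen x) hKs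
  rw [← hy]
  exact Subgroup.card_le_of_le inf_le_left

theorem isInduced_belb (hmax : IsMaximalBrauerPair p M B P c) (hB : IsPBlock M B) {x : G} (hx : x ∈ P) :
    IsInducedBlock M (cen x) (belb hM hmax x) B :=
  (induced_iff_ofBlk hM (exists_orderOf_eq_of_mem hmax.1.1.1 hx) (belb_spec hM hmax hx).2.1 hB).2
    (ofBlk_of_below hM hmax (belb_spec hM hmax hx).2.2)

variable (hmax : IsMaximalBrauerPair p M B P c) (hB : IsPBlock M B) (hab : ∀ x ∈ P, ∀ y ∈ P, x * y = y * x)
  (hfree : ∀ g ∈ stab P (bc hM P c), ∀ x ∈ P, x ≠ 1 → g * x * g⁻¹ = x → g ∈ Subgroup.centralizer (P : Set G))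

/-- The blocks below have rank one. -/
theorem blockRank_belb (hPD : IsDefectGroup p M B P) (hc : IsInducedBlock M (Subgroup.centralizer (P : Set G)) c B)
    {x : G} (hx : x ∈ P) (hx1 : x ≠ 1) (hB : IsPBlock M B) (hab : ∀ x ∈ P, ∀ y ∈ P, x * y = y * x)
    (hfree : ∀ g ∈ stab P (bc hM P c), ∀ x ∈ P, x ≠ 1 → g * x * g⁻¹ = x → g ∈ Subgroup.centralizer (P : Set G)) :
    blockRank p (belb hM hmax x) = 1 := by
  have hcp := complete (G := G) hM
  have hpe := isPair_bc hM hmax.1.1
  obtain ⟨-, hb, hle⟩ := belb_spec hM hmax hx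
  set b := belb hM hmax x
  have hQP := hle.subgroup_le
  have hPQ : P ≤ Subgroup.centralizer (Subgroup.zpowers x : Set G) := fun u hu =>
    Subgroup.mem_centralizer_iff.2 fun q hq => (hab u hu q (hQP hq)).symm
  obtain ⟨f, hQf, hfe⟩ := exists_bc hM (hle.isPair hpe)
  have hs := LE'.nstep hcp hpe hle (hPQ.trans (centralizer_le_normalizer _))
  rw [← hfe] at hs
  have hP1 : P ≠ ⊥ := fun h => hx1 (Subgroup.mem_bot.1 (h ▸ hx))
  have hnil := (Cfsg.Agent.S4650.result p M hM B hB P hPD hab hP1 c hc (stab P (bc hM P c))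
    (fun g => ⟨fun h => ⟨h.1, (stabilizesBlock_bc_iff hM hc.1 h.1).2 h.2⟩,
      fun h => ⟨h.1, (stabilizesBlock_bc_iff hM hc.1 h.1).1 h.2⟩⟩)).1 hfree (Subgroup.zpowers x) hQP
    (fun h => hx1 (Subgroup.zpowers_eq_bot.1 h)) f
    ((isInducedBlockIn_iff hM hQP hPQ hmax.1.1).2 ((nstep_bc_iff hM hQf hmax.1.1).2 hs))
  obtain ⟨b', hb1, -, hb2, hb3, -, -⟩ := exists_transfer hM (centralizer_zpowers_eq x) f
  obtain rfl : b' = b := bl_inj hM _ (cen x).subtype_injective (hb2 hQf.2) hb (hb1.trans hfe)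
  exact blockRank_eq_one hM (hb3 hnil)

/-- Corresponding blocks below give the same products. -/
theorem KS_below_eq {h u v : G} (hu : u ∈ P) (hv : v ∈ P) (huv : h * u * h⁻¹ = v)
    (hbb : PairAlg.cj h (bb hM u (belb hM hmax u)) = bb hM v (belb hM hmax v)) {ψ φ : G → ℂ}
    (hψ : IsClassFunction G ψ) (hφ : IsClassFunction G φ) :
    KS p v (cf hM hmax v) ψ φ = KS p u (cf hM hmax u) ψ φ ∧ Nat.card (cen v) = Nat.card (cen u) := by
  subst huv
  obtain ⟨b', hb', he, hco⟩ := exists_conj_block hM h u (belb_spec hM hmax hu).2.1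
  obtain rfl : b' = belb hM hmax (h * u * h⁻¹) :=
    bl_inj hM _ (cen _).subtype_injective hb' (belb_spec hM hmax hv).2.1 (he.trans hbb)
  refine ⟨?_, card_cen_conj h u⟩
  rw [show cf hM hmax (h * u * h⁻¹) = fun k => cf hM hmax u (h⁻¹ * k * h) from hco, KS_conj h u _ hψ hφ]

theorem conj_mem_of_stab {t x : G} (ht : t ∈ stab P (bc hM P c)) (hx : x ∈ P) : t * x * t⁻¹ ∈ P :=
  (Subgroup.mem_normalizer_iff.1 ht.1 x).1 hx

include hmax in
/-- The stabilizer permutes the blocks below. -/
theorem cj_belb {t x : G} (ht : t ∈ stab P (bc hM P c)) (hx : x ∈ P) :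
    PairAlg.cj t (bb hM x (belb hM hmax x)) = bb hM (t * x * t⁻¹) (belb hM hmax (t * x * t⁻¹)) := by
  have h := (belb_spec hM hmax hx).2.2.cj t
  rw [cm_zpowers, cm_of_mem_normalizer ht.1, ht.2] at h
  exact below_unique (complete (G := G) hM) (isPair_bc hM hmax.1.1) h
    (belb_spec hM hmax (conj_mem_of_stab hM ht hx)).2.2

include hab in
theorem NN_stab {t x : G} (ht : t ∈ stab P (bc hM P c)) (hx : x ∈ P) (ψ φ : IrrCharacter G) :
    NN hM hmax (t * x * t⁻¹) (ψ : G → ℂ) (φ : G → ℂ) = NN hM hmax x (ψ : G → ℂ) (φ : G → ℂ) := by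
  have hy := conj_mem_of_stab hM ht hx
  obtain ⟨h1, h2⟩ := KS_below_eq hM hmax hx hy rfl (cj_belb hM hmax ht hx)
    (isClassFunction (isCharacter_of_irr ψ.2)) (isClassFunction (isCharacter_of_irr φ.2))
  have hinf : ∀ z ∈ P, P ⊓ cen z = P := fun z hz =>
    inf_eq_left.2 fun u hu => Subgroup.mem_centralizer_singleton_iff.2 (hab u hu z hz)
  rw [NN, NN, h1, h2, hinf _ hy, hinf _ hx]

omit hM

/-- A character of the group, continued by zero and conjugated. -/
noncomputable def extConj (θ : IrrCharacter P) (z : G) : ℂ := by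
  classical exact if h : z ∈ P then conj ((θ : P → ℂ) ⟨z, h⟩) else 0

variable (c) in
/-- The sum of the conjugates of a character under the inertial quotient. -/
noncomputable def etaSum (hM : IsPModular p M) (θ : IrrCharacter P) (x : G) : ℂ :=
  ∑ q : ↥(stab P (bc hM P c)) ⧸ (Subgroup.centralizer (P : Set G)).subgroupOf (stab P (bc hM P c)),
    extConj θ ((q.out : G) * x * (q.out : G)⁻¹)

include hM

theorem extConj_congr (θ : IrrCharacter P) {s t : ↥(stab P (bc hM P c))} (x : G)
    (h : (s : ↥(stab P (bc hM P c)) ⧸ (Subgroup.centralizer (P : Set G)).subgroupOf (stab P (bc hM P c))) = t) :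
    extConj θ ((s : G) * x * (s : G)⁻¹) = extConj θ ((t : G) * x * (t : G)⁻¹) := by
  by_cases hx : x ∈ P
  · have hd : (s : G)⁻¹ * t ∈ Subgroup.centralizer (P : Set G) := Subgroup.mem_subgroupOf.1 (QuotientGroup.eq.1 h)
    congr 1
    calc (s : G) * x * (s : G)⁻¹ = (s : G) * (x * ((s : G)⁻¹ * t)) * (t : G)⁻¹ := by group
      _ = _ := by rw [Subgroup.mem_centralizer_iff.1 hd x hx]; group
  · have hn : ∀ r : ↥(stab P (bc hM P c)), extConj θ ((r : G) * x * (r : G)⁻¹) = 0 := fun r => by
      rw [extConj, dif_neg]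
      exact fun h' => hx ((Subgroup.mem_normalizer_iff.1 r.2.1 x).2 h')
    rw [hn, hn]

theorem centralizer_le_pairStab (hmax : IsMaximalBrauerPair p M B P c) :
    Subgroup.centralizer (P : Set G) ≤ stab P (bc hM P c) :=
  centralizer_le_stab (isPair_bc hM hmax.1.1)

theorem etaSum_stab (θ : IrrCharacter P) {t : G} (ht : t ∈ stab P (bc hM P c)) (x : G) :
    etaSum c hM θ (t * x * t⁻¹) = etaSum c hM θ x := by
  classical
  set T := stab P (bc hM P c) with hT
  haveI : ((Subgroup.centralizer (P : Set G)).subgroupOf T).Normal :=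
    Subgroup.normal_subgroupOf_of_le_normalizer fun u hu => le_normalizer_centralizer P hu.1
  refine Fintype.sum_equiv (Equiv.mulRight ((⟨t, ht⟩ : T) : T ⧸ _)) _ _ fun q => ?_
  show extConj θ ((q.out : G) * (t * x * t⁻¹) * (q.out : G)⁻¹) = _
  rw [show (q.out : G) * (t * x * t⁻¹) * (q.out : G)⁻¹ =
    ((q.out * ⟨t, ht⟩ : T) : G) * x * ((q.out * ⟨t, ht⟩ : T) : G)⁻¹ by push_cast; group]
  refine extConj_congr hM θ x ?_
  rw [QuotientGroup.mk_mul, QuotientGroup.out_eq', QuotientGroup.out_eq']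
  rfl

include hmax hab in
theorem stable_etaSum (θ : IrrCharacter P) : Stable hM P c (etaSum c hM θ) := by
  intro x g a ha hb
  obtain ⟨t, ht, he⟩ := exists_move_stab hM hmax hab ha hb
  rw [← he, etaSum_stab hM θ ht]

theorem memLocalRing_etaSum (θ : IrrCharacter P) (x : G) : MemLocalRing M (etaSum c hM θ x) := by
  refine memLocalRing_sum hM _ fun q _ => ?_
  rw [extConj]
  split_ifs
  · exact memLocalRing_conj hM θ _
  · exact memLocalRing_zero hM

theorem ro_etaSum (θ : IrrCharacter P) (Q : Subgroup G) (g : G) (hQ : cm g Q ≤ P) :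
    RO M Q fun u => etaSum c hM θ (g * u * g⁻¹) := by
  classical
  have hmem : ∀ (q : ↥(stab P (bc hM P c))) (u : Q), (q : G) * (g * u * g⁻¹) * (q : G)⁻¹ ∈ P := fun q u =>
    conj_mem_of_stab hM q.2 (hQ (conj_mem_cm.2 u.2))
  let ι : ↥(stab P (bc hM P c)) → (Q →* P) := fun q =>
    MonoidHom.mk' (fun u => ⟨_, hmem q u⟩) fun a b => Subtype.ext (by push_cast; group)
  have e : (fun u : Q => etaSum c hM θ (g * u * g⁻¹)) =
      ∑ q : ↥(stab P (bc hM P c)) ⧸ (Subgroup.centralizer (P : Set G)).subgroupOf (stab P (bc hM P c)),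
        fun u : Q => conj ((θ : P → ℂ) (ι q.out u)) := by
    funext u
    rw [Finset.sum_apply, etaSum]
    refine Finset.sum_congr rfl fun q _ => ?_
    rw [extConj, dif_pos (hmem q.out u)]
    rfl
  rw [e]
  exact RO.sum hM _ _ fun q _ =>
    ro_character hM (isCharacter_star (isCharacter_comp (isCharacter_of_irr θ.2) (ι q.out)))

include hmax hB hab hfree in
/-- The multiplicities of the product with a stable function. -/
theorem classInner_star_eq {η : G → ℂ} (hst : Stable hM P c η) {χ : IrrCharacter G} (hχ : χ ∈ B)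
    (ψ : IrrCharacter G) [DecidablePred fun u : G => u ∈ P ∧ u ≠ 1] :
    classInner (star hM P c η χ) (ψ : G → ℂ) = η 1 * classInner (pRegularPart p (χ : G → ℂ)) (ψ : G → ℂ) +
      ((Nat.card P : ℂ) * ((Subgroup.centralizer (P : Set G)).relIndex (stab P (bc hM P c)) : ℂ))⁻¹ *
        ∑ u ∈ Finset.univ.filter (fun u : G => u ∈ P ∧ u ≠ 1),
          η u * NN hM hmax u (χ : G → ℂ) (ψ : G → ℂ) := by
  classical
  have hp := (Fact.out : p.Prime)
  haveI : ∀ x : G, Fintype (IrrCharacter (cen x)) := fun x => @Fintype.ofFinite _ finite_irrCharacter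
  have hcp := complete (G := G) hM
  have hpe := isPair_bc hM hmax.1.1
  have hχc := isClassFunction (isCharacter_of_irr χ.2)
  have hψc := isClassFunction (isCharacter_of_irr ψ.2)
  set T := stab P (bc hM P c) with hTdef
  set e := (Subgroup.centralizer (P : Set G)).relIndex T with he
  set S := Finset.univ.filter (fun x : G => ∃ k : ℕ, orderOf x = p ^ k) with hS
  set ind := fun x : G => (blockFinset M (cen x)).filter (fun b => IsInducedBlock M (cen x) b B) with hind
  set F := fun x : G => ∑ y : cen x,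
    if p ∣ orderOf y then 0 else star hM P c η χ (x * y) * conj ((ψ : G → ℂ) (x * y)) with hF
  -- the sections
  have hsec : ∀ x ∈ S, F x = ∑ b ∈ ind x, ev hM P c η x (bb hM x b) * KS p x (coef x b) (χ : G → ℂ) (ψ : G → ℂ) := by
    intro x hx
    have hxp := (Finset.mem_filter.1 hx).2
    have e1 : ∀ y : cen x, (if p ∣ orderOf y then 0 else star hM P c η χ (x * y) * conj ((ψ : G → ℂ) (x * y))) =
        (∑ b ∈ blockFinset M (cen x), ev hM P c η x (bb hM x b) * secVal p x b (χ : G → ℂ) y) *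
          conj (∑ b ∈ blockFinset M (cen x), 1 * secVal p x b (ψ : G → ℂ) y) := fun y => by
      simp only [one_mul, ← regular_eq_sum_secVal hM hψc y]
      split_ifs with hy
      · simp
      · rw [star_mul_eq_sum hM P c η χ hxp y hy]
    simp only [hF]
    rw [Finset.sum_congr rfl fun y _ => e1 y, sum_section_product hM _ _ hχc hψc]
    simp only [map_one, mul_one]
    refine (Finset.sum_subset (Finset.filter_subset _ _) fun b hb hb' => ?_).symm
    have hni : ¬ IsInducedBlock M (cen x) b B := fun h => hb' (Finset.mem_filter.2 ⟨hb, h⟩)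
    rw [KS_eq_sum_secVal x b hχc hψc, Finset.sum_eq_zero (fun y _ => by
      rw [secVal_eq_zero hM hxp (mem_blockFinset.1 hb) hB hχ hni, zero_mul]), mul_zero]
  have h1S : (1 : G) ∈ S := Finset.mem_filter.2 ⟨Finset.mem_univ _, 0, by simp⟩
  -- the identity
  have hone : F 1 = η 1 * ((Nat.card G : ℂ) * classInner (pRegularPart p (χ : G → ℂ)) (ψ : G → ℂ)) := by
    have hu : ∃ k : ℕ, orderOf (1 : G) = p ^ k := ⟨0, by simp⟩
    rw [classInner_eq, mul_inv_cancel_left₀ (Nat.cast_ne_zero.2 Nat.card_pos.ne'), Finset.mul_sum]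
    simp only [hF]
    refine Fintype.sum_equiv (⟨fun y => (y : G), fun g => ⟨g, Subgroup.mem_centralizer_singleton_iff.2 (by simp)⟩,
      fun y => rfl, fun g => rfl⟩ : cen (1 : G) ≃ G) _ _ fun y => ?_
    simp only [Equiv.coe_fn_mk, one_mul, pRegularPart_apply, Subgroup.orderOf_coe]
    split_ifs with hy
    · simp
    · have h2 := regular_eq_sum_secVal (p := p) hM hχc y
      rw [if_neg hy, one_mul] at h2
      rw [h2, Finset.sum_mul, Finset.mul_sum]
      have h3 := star_mul_eq_sum hM P c η χ hu y hy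
      rw [one_mul] at h3
      rw [h3, Finset.sum_mul]
      refine Finset.sum_congr rfl fun b hb => ?_
      by_cases hi : IsInducedBlock M (cen (1 : G)) b B
      · obtain ⟨g, -, hg⟩ := exists_ev_eq hM hmax hst ((induced_iff_ofBlk hM hu (mem_blockFinset.1 hb) hB).1 hi)
        rw [hg, show g * 1 * g⁻¹ = (1 : G) by group]
        ring
      · rw [secVal_eq_zero hM hu (mem_blockFinset.1 hb) hB hχ hi]
        ring
  -- the other sections
  set X := (Finset.univ : Finset G) ×ˢ Finset.univ.filter (fun u : G => u ∈ P ∧ u ≠ 1) with hX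
  set w := fun s : G × G => η s.2 * KS p s.2 (cf hM hmax s.2) (χ : G → ℂ) (ψ : G → ℂ) /
    ((Nat.card (cen s.2) : ℂ) * (e : ℂ)) with hw
  set Mt := fun (t : Σ x : G, Set (IrrCharacter (cen x))) (s : G × G) =>
    s.1 * s.2 * s.1⁻¹ = t.1 ∧ PairAlg.cj s.1 (bb hM s.2 (belb hM hmax s.2)) = bb hM t.1 t.2 with hMt
  have hfib : ∀ t ∈ (S.erase 1).sigma ind,
      ev hM P c η t.1 (bb hM t.1 t.2) * KS p t.1 (coef t.1 t.2) (χ : G → ℂ) (ψ : G → ℂ) =
        ∑ s ∈ X, if Mt t s then w s else 0 := by
    rintro ⟨x, b⟩ ht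
    simp only [Finset.mem_sigma, Finset.mem_erase, hind, Finset.mem_filter, hS] at ht
    obtain ⟨⟨hx1, -, hxp⟩, hbb, hbi⟩ := ht
    obtain ⟨g, hg⟩ := exists_conj_below_max hM hmax ((induced_iff_ofBlk hM hxp hbi.1 hB).1 hbi)
    have hev := ev_of_le hM hst hg
    rw [cm_zpowers] at hg
    have hu₀ : g * x * g⁻¹ ∈ P := Subgroup.zpowers_le.1 hg.subgroup_le
    have hu₀1 : g * x * g⁻¹ ≠ 1 := fun h => hx1 (conj_eq_one_iff.1 h)
    have hg' : PairAlg.cj g (bb hM x b) = bb hM _ (belb hM hmax (g * x * g⁻¹)) :=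
      below_unique hcp hpe hg (belb_spec hM hmax hu₀).2.2
    obtain ⟨b', hb', heb, hco⟩ := exists_conj_block hM g x hbi.1
    obtain rfl : b' = belb hM hmax (g * x * g⁻¹) :=
      bl_inj hM _ (cen _).subtype_injective hb' (belb_spec hM hmax hu₀).2.1 (heb.trans hg')
    have hKS : KS p x (coef x b) (χ : G → ℂ) (ψ : G → ℂ) =
        KS p (g * x * g⁻¹) (cf hM hmax (g * x * g⁻¹)) (χ : G → ℂ) (ψ : G → ℂ) := by
      rw [show cf hM hmax (g * x * g⁻¹) = fun k => coef x b (g⁻¹ * k * g) from hco, KS_conj g x _ hχc hψc]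
    generalize hu₀def : g * x * g⁻¹ = u₀ at *
    rw [hev, hKS, ← Finset.sum_filter]
    set Fib := X.filter (fun s => Mt ⟨x, b⟩ s) with hFib
    have hconst : ∀ s ∈ Fib, w s = η u₀ * KS p u₀ (cf hM hmax u₀) (χ : G → ℂ) (ψ : G → ℂ) /
        ((Nat.card (cen u₀) : ℂ) * (e : ℂ)) := by
      rintro ⟨g', v⟩ hs
      simp only [hFib, Finset.mem_filter, hX, Finset.mem_product, hMt] at hs
      obtain ⟨⟨-, -, hv, -⟩, hgv, hbv⟩ := hs
      have hv0 : g * g' * v * (g * g')⁻¹ = u₀ := by rw [← hu₀def, ← hgv]; group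
      have hb0 : PairAlg.cj (g * g') (bb hM v (belb hM hmax v)) = bb hM u₀ (belb hM hmax u₀) := by
        rw [← cj_cj, hbv, hg']
      obtain ⟨hk, hcard⟩ := KS_below_eq hM hmax hv hu₀ hv0 hb0 hχc hψc
      obtain ⟨t, htT, htv⟩ := exists_move_stab hM hmax hab (h := g * g') (belb_spec hM hmax hv).2.2
        (by rw [cm_zpowers, hv0, hb0]; exact (belb_spec hM hmax hu₀).2.2)
      have hη : η u₀ = η v := by
        have h := hst v (g * g') (bb hM v (belb hM hmax v)) (belb_spec hM hmax hv).2.2
          (by rw [cm_zpowers, hv0, hb0]; exact (belb_spec hM hmax hu₀).2.2)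
        rwa [hv0] at h
      simp only [hw, hk, hcard, hη]
    have hcount : Fib.card = Nat.card (cen u₀) * e := by
      rw [show e = Nat.card (↥T ⧸ (Subgroup.centralizer (P : Set G)).subgroupOf T) from Subgroup.index_eq_card _,
        Nat.card_eq_fintype_card, Nat.card_eq_fintype_card, ← Fintype.card_prod, ← Finset.card_univ]
      symm
      refine Finset.card_bij (fun (r : cen u₀ × (↥T ⧸ (Subgroup.centralizer (P : Set G)).subgroupOf T)) _ =>
        ((g⁻¹ * (r.1 : G) * (r.2.out : G)⁻¹, (r.2.out : G) * u₀ * (r.2.out : G)⁻¹) : G × G)) ?_ ?_ ?_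
      · rintro ⟨d, q⟩ -
        set r := q.out
        have hd : (d : G) * u₀ = u₀ * d := Subgroup.mem_centralizer_singleton_iff.1 d.2
        simp only [hFib, Finset.mem_filter, hX, Finset.mem_product, Finset.mem_univ, true_and, hMt]
        refine ⟨⟨conj_mem_of_stab hM r.2 hu₀, fun h => hu₀1 (conj_eq_one_iff.1 h)⟩, ?_, ?_⟩
        · calc g⁻¹ * (d : G) * (r : G)⁻¹ * ((r : G) * u₀ * (r : G)⁻¹) * (g⁻¹ * (d : G) * (r : G)⁻¹)⁻¹
              = g⁻¹ * ((d : G) * u₀) * (d : G)⁻¹ * g := by group
            _ = g⁻¹ * (g * x * g⁻¹) * g := by rw [hd, hu₀def]; group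
            _ = x := by group
        · rw [← cj_belb hM hmax r.2 hu₀, cj_cj, inv_mul_cancel_right, ← cj_cj]
          have hdm : (d : G) ∈ Subgroup.centralizer (Subgroup.zpowers u₀ : Set G) := by
            rw [centralizer_zpowers_eq]; exact d.2
          rw [(centralizer_le_stab ((belb_spec hM hmax hu₀).2.2.isPair hpe) hdm).2, ← hg', cj_inv_cj]
      · rintro ⟨d, q⟩ - ⟨d', q'⟩ - h
        simp only [Prod.mk.injEq] at h
        obtain ⟨h1, h2⟩ := h
        rw [mul_assoc, mul_assoc] at h1
        have h1' := mul_left_cancel h1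
        have hc : (q.out : G)⁻¹ * q'.out ∈ Subgroup.centralizer (P : Set G) :=
          hfree _ (mul_mem (inv_mem q.out.2) q'.out.2) u₀ hu₀ hu₀1 (by
            calc (q.out : G)⁻¹ * q'.out * u₀ * ((q.out : G)⁻¹ * q'.out)⁻¹
                = (q.out : G)⁻¹ * ((q'.out : G) * u₀ * (q'.out : G)⁻¹) * q.out := by group
              _ = u₀ := by rw [← h2]; group)
        have hq : q = q' := by
          rw [← QuotientGroup.out_eq' q, ← QuotientGroup.out_eq' q', QuotientGroup.eq, Subgroup.mem_subgroupOf]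
          simpa using hc
        subst hq
        exact Prod.ext (Subtype.ext (mul_right_cancel h1')) rfl
      · rintro ⟨g', v⟩ hs
        simp only [hFib, Finset.mem_filter, hX, Finset.mem_product, hMt] at hs
        obtain ⟨⟨-, -, hv, -⟩, hgv, hbv⟩ := hs
        have hv0 : g * g' * v * (g * g')⁻¹ = u₀ := by rw [← hu₀def, ← hgv]; group
        have hb0 : PairAlg.cj (g * g') (bb hM v (belb hM hmax v)) = bb hM u₀ (belb hM hmax u₀) := by
          rw [← cj_cj, hbv, hg']
        obtain ⟨t, htT, htv⟩ := exists_move_stab hM hmax hab (h := g * g') (belb_spec hM hmax hv).2.2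
          (by rw [cm_zpowers, hv0, hb0]; exact (belb_spec hM hmax hu₀).2.2)
        rw [hv0] at htv
        set q : ↥T ⧸ (Subgroup.centralizer (P : Set G)).subgroupOf T := QuotientGroup.mk (⟨t, htT⟩⁻¹ : T) with hq
        have hrc : t * (q.out : G) ∈ Subgroup.centralizer (P : Set G) := by
          have h := QuotientGroup.eq.1 (QuotientGroup.out_eq' q).symm
          rw [Subgroup.mem_subgroupOf] at h
          simpa using h
        refine ⟨(⟨g * g' * (q.out : G), Subgroup.mem_centralizer_singleton_iff.2 ?_⟩, q), Finset.mem_univ _, ?_⟩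
        · have h3 : (q.out : G) * u₀ * (q.out : G)⁻¹ = v := by
            calc (q.out : G) * u₀ * (q.out : G)⁻¹ = t⁻¹ * ((t * q.out) * u₀) * (q.out : G)⁻¹ := by group
              _ = t⁻¹ * u₀ * t := by rw [← Subgroup.mem_centralizer_iff.1 hrc u₀ hu₀]; group
              _ = v := by rw [← htv]; group
          calc g * g' * (q.out : G) * u₀ = g * g' * ((q.out : G) * u₀ * (q.out : G)⁻¹) * q.out := by group
            _ = g * g' * v * (g * g')⁻¹ * (g * g' * q.out) := by rw [h3]; group
            _ = _ := by rw [hv0]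
        · simp only [Prod.mk.injEq]
          refine ⟨by group, ?_⟩
          calc (q.out : G) * u₀ * (q.out : G)⁻¹ = t⁻¹ * ((t * q.out) * u₀) * (q.out : G)⁻¹ := by group
            _ = t⁻¹ * u₀ * t := by rw [← Subgroup.mem_centralizer_iff.1 hrc u₀ hu₀]; group
            _ = v := by rw [← htv]; group
    rw [Finset.sum_congr rfl hconst, Finset.sum_const, hcount, nsmul_eq_mul, Nat.cast_mul]
    have h8 : (Nat.card (cen u₀) : ℂ) * (e : ℂ) ≠ 0 :=
      mul_ne_zero (Nat.cast_ne_zero.2 Nat.card_pos.ne') (Nat.cast_ne_zero.2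
        (Subgroup.index_ne_zero_of_finite (H := (Subgroup.centralizer (P : Set G)).subgroupOf T)))
    rw [mul_div_cancel₀ _ h8]
  have huniq : ∀ s ∈ X, (∑ t ∈ (S.erase 1).sigma ind, if Mt t s then w s else 0) = w s := by
    rintro ⟨g, v⟩ hs
    simp only [hX, Finset.mem_product, Finset.mem_filter] at hs
    obtain ⟨-, -, hv, hv1⟩ := hs
    have hvp := exists_orderOf_eq_of_mem hmax.1.1.1 hv
    obtain ⟨b', hb', heb, -⟩ := exists_conj_block hM g v (belb_spec hM hmax hv).2.1
    have hxp : ∃ k : ℕ, orderOf (g * v * g⁻¹) = p ^ k := by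
      obtain ⟨k, hk⟩ := hvp
      exact ⟨k, by rw [← hk]; exact (MulAut.conj g).orderOf_eq v⟩
    have hof := (ofBlk_of_below hM hmax (belb_spec hM hmax hv).2.2).cj g
    rw [cm_zpowers, ← heb] at hof
    rw [← Finset.sum_filter, Finset.sum_const, show ((S.erase 1).sigma ind).filter (fun t => Mt t (g, v)) =
      {⟨g * v * g⁻¹, b'⟩} from ?_, Finset.card_singleton, one_smul]
    ext ⟨x, b⟩
    simp only [Finset.mem_filter, Finset.mem_sigma, Finset.mem_singleton, hMt]
    constructor
    · rintro ⟨⟨-, hb⟩, rfl, hcj⟩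
      congr 1
      exact bl_inj hM _ (cen _).subtype_injective (mem_blockFinset.1 (Finset.mem_filter.1 hb).1) hb'
        (hcj.symm.trans heb.symm)
    · intro h
      cases h
      refine ⟨⟨Finset.mem_erase.2 ⟨fun h => hv1 (conj_eq_one_iff.1 h), Finset.mem_filter.2 ⟨Finset.mem_univ _, hxp⟩⟩,
        Finset.mem_filter.2 ⟨mem_blockFinset.2 hb', (induced_iff_ofBlk hM hxp hb' hB).2 hof⟩⟩, rfl, heb.symm⟩
  have hrest : ∑ x ∈ S.erase 1, F x = ∑ s ∈ X, w s := by
    rw [Finset.sum_congr rfl fun x hx => hsec x (Finset.mem_of_mem_erase hx),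
      ← Finset.sum_sigma (S.erase 1) ind
        (fun t => ev hM P c η t.1 (bb hM t.1 t.2) * KS p t.1 (coef t.1 t.2) (χ : G → ℂ) (ψ : G → ℂ)),
      Finset.sum_congr rfl hfib, Finset.sum_comm, Finset.sum_congr rfl huniq]
  have hG : (Nat.card G : ℂ) ≠ 0 := Nat.cast_ne_zero.2 Nat.card_pos.ne'
  rw [classInner_eq, sum_by_sections hp _ S (fun x => by simp [hS])]
  show (Nat.card G : ℂ)⁻¹ * ∑ x ∈ S, F x = _
  rw [← Finset.add_sum_erase _ _ h1S, hone, hrest, hX, Finset.sum_product, Finset.sum_comm,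
    Finset.sum_congr rfl (g := fun u => (Nat.card G : ℂ) * w (1, u)) fun u _ => by
      show ∑ _g : G, w (1, u) = _
      rw [Finset.sum_const, Finset.card_univ, ← Nat.card_eq_fintype_card, nsmul_eq_mul],
    mul_add, Finset.mul_sum, Finset.mul_sum]
  congr 1
  · field_simp
  · refine Finset.sum_congr rfl fun u hu => ?_
    have hu' := (Finset.mem_filter.1 hu).2.1
    have hinf : P ⊓ cen u = P := inf_eq_left.2 fun z hz => Subgroup.mem_centralizer_singleton_iff.2 (hab z hz u hu')
    simp only [hw, NN, hinf]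
    have hP0 : (Nat.card P : ℂ) ≠ 0 := Nat.cast_ne_zero.2 Nat.card_pos.ne'
    field_simp

include hmax hB hab hfree in
/-- The scaled multiplicities are of rank one modulo the order of the defect group. -/
theorem memLocalRing_minor (hPD : IsDefectGroup p M B P)
    (hc : IsInducedBlock M (Subgroup.centralizer (P : Set G)) c B) {χ χ₀ ψ : IrrCharacter G} (hχ : χ ∈ B)
    (h₀ : χ₀ ∈ B) :
    MemLocalRing M (((Subgroup.centralizer (P : Set G)).relIndex (stab P (bc hM P c)) : ℂ) ^ 2 * (Nat.card P : ℂ) *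
      (classInner (pRegularPart p (χ : G → ℂ)) (ψ : G → ℂ) * classInner (pRegularPart p (χ₀ : G → ℂ)) (χ₀ : G → ℂ) -
        classInner (pRegularPart p (χ : G → ℂ)) (χ₀ : G → ℂ) *
          classInner (pRegularPart p (χ₀ : G → ℂ)) (ψ : G → ℂ))) := by
  classical
  haveI : Fintype (IrrCharacter P) := @Fintype.ofFinite _ finite_irrCharacter
  set T := stab P (bc hM P c) with hTdef
  set e := ((Subgroup.centralizer (P : Set G)).relIndex T : ℂ) with he
  have he0 : e ≠ 0 := Nat.cast_ne_zero.2
    (Subgroup.index_ne_zero_of_finite (H := (Subgroup.centralizer (P : Set G)).subgroupOf T))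
  set P' := Finset.univ.filter (fun u : G => u ∈ P ∧ u ≠ 1) with hP'
  set R := fun a b : IrrCharacter G => classInner (pRegularPart p (a : G → ℂ)) (b : G → ℂ) with hR
  set Gf := fun (a b : IrrCharacter G) (u : P) =>
    if u = 1 then e * (Nat.card P : ℂ) * R a b else NN hM hmax (u : G) (a : G → ℂ) (b : G → ℂ) with hGf
  have hcls : ∀ f : P → ℂ, IsClassFunction P f := fun f g k => by
    rw [show k * g * k⁻¹ = g from mul_inv_eq_iff_eq_mul.2 (Subtype.ext (hab k k.2 g g.2))]
  have hsplit : ∀ f : P → ℂ, ∀ f' : G → ℂ, (∀ u : P, u ≠ 1 → f u = f' u) →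
      ∑ u : P, f u = f 1 + ∑ u ∈ P', f' u := by
    intro f f' h
    rw [← Finset.add_sum_erase _ _ (Finset.mem_univ (1 : P))]
    congr 1
    refine Finset.sum_bij (fun u _ => (u : G)) (fun u hu => ?_) (fun _ _ _ _ h => Subtype.ext h) (fun u hu => ?_)
      fun u hu => h u (Finset.ne_of_mem_erase hu)
    · exact Finset.mem_filter.2 ⟨Finset.mem_univ _, u.2, fun h => Finset.ne_of_mem_erase hu (Subtype.ext h)⟩
    · obtain ⟨-, hu1, hu2⟩ := Finset.mem_filter.1 hu
      exact ⟨⟨u, hu1⟩, Finset.mem_erase.2 ⟨fun h => hu2 (congrArg Subtype.val h), Finset.mem_univ _⟩, rfl⟩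
  -- the Fourier coefficients
  have hro : ∀ a ∈ B, ∀ b : IrrCharacter G, RO M P (Gf a b) := fun a ha b => ⟨hcls _, fun θ => by
    have hst := stable_etaSum hM hmax hab θ
    have h := memLocalRing_inner_of_stable hM (memLocalRing_etaSum hM θ) hst (ro_etaSum hM θ) hmax hB ha b
    rw [classInner_star_eq hM hmax hB hab hfree hst ha b] at h
    convert h using 1
    have hq : ∀ q : ↥T ⧸ (Subgroup.centralizer (P : Set G)).subgroupOf T,
        ∑ u ∈ P', extConj θ ((q.out : G) * u * (q.out : G)⁻¹) * NN hM hmax u (a : G → ℂ) (b : G → ℂ) =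
          ∑ u ∈ P', extConj θ u * NN hM hmax u (a : G → ℂ) (b : G → ℂ) := by
      intro q
      refine Finset.sum_equiv (MulAut.conj (q.out : G)).toEquiv (fun u => ?_) fun u hu => ?_
      · simp only [hP', Finset.mem_filter, Finset.mem_univ, true_and, MulEquiv.toEquiv_eq_coe, EquivLike.coe_coe,
          MulAut.conj_apply, ne_eq, conj_eq_one_iff]
        exact and_congr_left' (Subgroup.mem_normalizer_iff.1 q.out.2.1 u)
      · simp only [MulEquiv.toEquiv_eq_coe, EquivLike.coe_coe, MulAut.conj_apply]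
        rw [NN_stab hM hmax hab q.out.2 (Finset.mem_filter.1 hu).2.1]
    have hcardq : (Fintype.card (↥T ⧸ (Subgroup.centralizer (P : Set G)).subgroupOf T) : ℂ) = e := by
      rw [← Nat.card_eq_fintype_card, ← Subgroup.index_eq_card]; rfl
    have h1 : etaSum c hM θ 1 = e * conj ((θ : P → ℂ) 1) := by
      have h : ∀ z : G, z = 1 → extConj θ z = conj ((θ : P → ℂ) 1) := fun z hz => by
        subst hz
        rw [extConj, dif_pos P.one_mem]
        rfl
      rw [etaSum, Finset.sum_congr rfl fun q _ => h _ (by group), Finset.sum_const, Finset.card_univ, nsmul_eq_mul,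
        hcardq]
    rw [h1]
    simp only [etaSum, Finset.sum_mul]
    rw [Finset.sum_comm, Finset.sum_congr rfl fun q _ => hq q, Finset.sum_const, Finset.card_univ, nsmul_eq_mul,
      hcardq, classInner_eq, hsplit _ (fun u => extConj θ u * NN hM hmax u (a : G → ℂ) (b : G → ℂ)) fun u hu => by
        simp only [hGf, if_neg hu, extConj, dif_pos u.2]
        ring]
    simp only [hGf, if_true, hR]
    rw [show ((Subgroup.centralizer (P : Set G)).relIndex (stab P (bc hM P c)) : ℂ) = e from rfl]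
    field_simp⟩
  -- the product vanishes off the identity
  set E : P → ℂ := fun u => Gf χ ψ u * Gf χ₀ χ₀ u - Gf χ χ₀ u * Gf χ₀ ψ u with hE
  have hE0 : ∀ u : P, u ≠ 1 → E u = 0 := by
    intro u hu
    have hu1 : (u : G) ≠ 1 := fun h => hu (Subtype.ext h)
    haveI : Fintype (IrrCharacter (cen (u : G))) := @Fintype.ofFinite _ finite_irrCharacter
    set b := belb hM hmax (u : G) with hb
    have hl := blockRank_belb hM hmax hPD hc u.2 hu1 hB hab hfree
    unfold blockRank at hl
    set W := Submodule.span ℂ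
      ((fun ξ : IrrCharacter (cen (u : G)) => pRegularPart p (ξ : cen (u : G) → ℂ)) '' b) with hW
    obtain ⟨v, -, hv⟩ := finrank_eq_one_iff'.1 hl
    have hmem : ∀ a : IrrCharacter G, (fun y => secVal p (u : G) b (a : G → ℂ) y) ∈ W := by
      intro a
      have e : (fun y => secVal p (u : G) b (a : G → ℂ) y) = ∑ ξ ∈ Finset.univ.filter (· ∈ b),
          classInner (shiftFun (u : G) (a : G → ℂ)) (ξ : cen (u : G) → ℂ) •
            pRegularPart p (ξ : cen (u : G) → ℂ) := by
        funext y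
        simp only [secVal, Finset.sum_apply, Pi.smul_apply, smul_eq_mul, pRegularPart_eq,
          ZStar.blockPart_apply, ← Finset.sum_filter]
        split_ifs <;> simp
      rw [e]
      exact Submodule.sum_mem _ fun ξ hξ => Submodule.smul_mem _ _
        (Submodule.subset_span ⟨ξ, (Finset.mem_filter.1 hξ).2, rfl⟩)
    choose co hco using fun a => hv ⟨_, hmem a⟩
    have hval : ∀ a y, secVal p (u : G) b ((a : IrrCharacter G) : G → ℂ) y = co a * (v : cen (u : G) → ℂ) y :=
      fun a y => (congrFun (congrArg Subtype.val (hco a)) y).symm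
    have hN : ∀ a a' : IrrCharacter G, NN hM hmax (u : G) (a : G → ℂ) (a' : G → ℂ) =
        co a * conj (co a') * ((Nat.card ↥(P ⊓ cen (u : G)) : ℂ) / (Nat.card (cen (u : G)) : ℂ) *
          ∑ y, (v : cen (u : G) → ℂ) y * conj ((v : cen (u : G) → ℂ) y)) := by
      intro a a'
      rw [NN, KS_eq_sum_secVal _ _ (isClassFunction (isCharacter_of_irr a.2))
        (isClassFunction (isCharacter_of_irr a'.2)), Finset.mul_sum, Finset.mul_sum, Finset.mul_sum]
      refine Finset.sum_congr rfl fun y _ => ?_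
      rw [← hb, hval, hval, map_mul]
      ring
    simp only [hE, hGf, if_neg hu, hN]
    ring
  have hER : RO M P E := by
    have := RO.sum hM (Finset.univ : Finset Bool)
      (fun i => bif i then Gf χ ψ * Gf χ₀ χ₀ else (-1 : ℂ) • (Gf χ χ₀ * Gf χ₀ ψ)) (fun i _ => by
        cases i
        · exact ((hro χ hχ χ₀).mul hM (hro χ₀ h₀ ψ)).smul hM (memLocalRing_neg (memLocalRing_one hM))
        · exact (hro χ hχ ψ).mul hM (hro χ₀ h₀ χ₀))
    convert this using 1
    funext u
    simp [hE]
    ring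
  have hfin := hER.2 ⟨fun _ => 1, isIrrCharacter_one⟩
  rw [classInner_eq, Finset.sum_eq_single 1 (fun u _ hu => by rw [hE0 u hu, zero_mul])
    (fun h => absurd (Finset.mem_univ _) h)] at hfin
  convert hfin using 1
  have hP0 : (Nat.card P : ℂ) ≠ 0 := Nat.cast_ne_zero.2 Nat.card_pos.ne'
  simp only [hE, hGf, if_true, hR, map_one, mul_one]
  field_simp

end CfsgLib.BrauerFeit
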