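import Mathlib

/-!
# A lower bound for an integral form which is a multiple of a projection and of rank one modulo `p`, a prime power

`N` is a symmetric integral form, `T` a set of coordinates along which `N` reproduces itself up to the factor `p`,
`p * l` is the trace along `T` and `N` has rank one modulo `p`.  Then `N` takes only values at least `l` besides `0`.
The proof runs down the Gram determinants of vectors completed by coordinate vectors from `T`.
-/

set_option autoImplicit false
set_option linter.unusedSectionVars false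

namespace CfsgLib.BrauerFeit

open Matrix

/-- An integral matrix of rank at most one modulo a prime power has determinant divisible by its `n - 1`-th power. -/
theorem pow_dvd_det {ι : Type*} [Fintype ι] [DecidableEq ι] {p : ℕ} (hp : ∃ r n : ℕ, r.Prime ∧ p = r ^ n)
    (A : Matrix ι ι ℤ) (u v : ι → ℤ) (h : ∀ a b, (p : ℤ) ∣ A a b - u a * v b) :
    (p : ℤ) ^ (Fintype.card ι - 1) ∣ A.det := by
  classical
  have hrows : ∀ (B : Matrix ι ι ℤ) (s : Finset ι), (∀ a ∈ s, ∀ b, (p : ℤ) ∣ B a b) →
      (p : ℤ) ^ s.card ∣ B.det := by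
    intro B s hs
    let C : Matrix ι ι ℤ := fun a b => if a ∈ s then B a b / p else B a b
    have e : B = Matrix.of fun a b => (if a ∈ s then (p : ℤ) else 1) * C a b := by
      ext a b
      simp only [C, Matrix.of_apply]
      split_ifs with ha
      · rw [Int.mul_ediv_cancel' (hs a ha b)]
      · rw [one_mul]
    rw [e, Matrix.det_mul_column, Finset.prod_ite_mem, Finset.univ_inter, Finset.prod_const]
    exact dvd_mul_right _ _
  obtain ⟨r, n, hr, rfl⟩ := hp
  by_cases hu : ∀ a, ((r ^ n : ℕ) : ℤ) ∣ u a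
  · refine (pow_dvd_pow _ (Nat.sub_le _ _)).trans (hrows A Finset.univ fun a _ b => ?_)
    have h1 := dvd_add (h a b) ((hu a).mul_right (v b))
    rwa [sub_add_cancel] at h1
  push Not at hu
  have hex : ∃ e k, ¬ (r : ℤ) ^ (e + 1) ∣ u k := by
    obtain ⟨k, hk⟩ := hu
    exact ⟨n, k, fun h' => hk (by push_cast; exact (pow_dvd_pow _ n.le_succ).trans h')⟩
  obtain ⟨k, hk⟩ := Nat.find_spec hex
  have hall : ∀ a, (r : ℤ) ^ Nat.find hex ∣ u a := fun a => by
    rcases Nat.eq_zero_or_pos (Nat.find hex) with h0 | h0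
    · rw [h0, pow_zero]; exact one_dvd _
    · have := Nat.find_min hex (show Nat.find hex - 1 < Nat.find hex by omega)
      push Not at this
      have h' := this a
      rwa [show Nat.find hex - 1 + 1 = Nat.find hex by omega] at h'
  set e := Nat.find hex
  choose t ht using hall
  obtain ⟨w, y, hwy⟩ : IsCoprime (t k) ((r ^ n : ℕ) : ℤ) := by
    push_cast
    refine IsCoprime.pow_right (((Nat.prime_iff_prime_int.1 hr).coprime_iff_not_dvd.2 fun hd => hk ?_).symm)
    rw [ht k, pow_succ]
    exact mul_dvd_mul_left _ hd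
  let c : ι → ℤ := fun a => if a = k then 0 else t a * w
  let B : Matrix ι ι ℤ := fun a b => A a b - c a * A k b
  have hdet : A.det = B.det := by
    refine Matrix.det_eq_of_forall_row_eq_smul_add_const c k (if_pos rfl) fun a b => ?_
    simp [B, c]
  rw [hdet, ← Finset.card_univ, ← Finset.card_erase_of_mem (Finset.mem_univ k)]
  refine hrows B _ fun a ha b => ?_
  have e' : B a b = (A a b - u a * v b) - t a * w * (A k b - u k * v b) +
      u a * v b * (y * (r ^ n : ℕ)) := by
    have hy : y * ((r ^ n : ℕ) : ℤ) = 1 - w * t k := by linarith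
    simp only [B, c, if_neg (Finset.ne_of_mem_erase ha), hy, ht a, ht k]
    ring
  rw [e']
  exact dvd_add (dvd_sub (h a b) ((h k b).mul_left _)) (dvd_mul_of_dvd_right (dvd_mul_left _ _) _)

variable {β : Type*} [Fintype β] {p l : ℕ}

/-- The hypotheses on the form. -/
structure Form (N : β → β → ℤ) (T : Finset β) (p l : ℕ) : Prop where
  ppow : ∃ r n : ℕ, r.Prime ∧ p = r ^ n
  symm : ∀ x y, N x y = N y x
  proj : ∀ x y, ∑ i ∈ T, N x i * N i y = (p : ℤ) * N x y
  trace : ∑ i ∈ T, N i i = (p : ℤ) * l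
  lt : ∀ i ∈ T, N i i < p
  rankOne : ∃ (w : ℤ) (h : β → ℤ), ∀ x y, (p : ℤ) ∣ N x y - w * h x * h y

theorem Form.pos {N : β → β → ℤ} {T : Finset β} (hN : Form N T p l) : 0 < p := by
  obtain ⟨r, n, hr, rfl⟩ := hN.ppow
  exact pow_pos hr.pos n

/-- The pairing of a vector with a coordinate. -/
def pairing (N : β → β → ℤ) (c : β → ℤ) (x : β) : ℤ := ∑ y, N x y * c y

/-- The Gram matrix of a family. -/
def gram (N : β → β → ℤ) {ι : Type*} (v : ι → β → ℤ) : Matrix ι ι ℤ :=
  fun a b => ∑ x, v a x * pairing N (v b) x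

variable {N : β → β → ℤ} {T : Finset β}

theorem Form.gram_eq (hN : Form N T p l) {ι : Type*} (v : ι → β → ℤ) (a b : ι) :
    (p : ℤ) * gram N v a b = ∑ i ∈ T, pairing N (v a) i * pairing N (v b) i := by
  simp only [gram, pairing, Finset.mul_sum, Finset.sum_mul]
  rw [Finset.sum_comm (s := T), Finset.sum_congr rfl fun y _ => Finset.sum_comm (s := T), Finset.sum_comm]
  refine Finset.sum_congr rfl fun y _ => Finset.sum_congr rfl fun x _ => ?_
  rw [show (p : ℤ) * (v a x * (N x y * v b y)) = (p : ℤ) * N x y * (v a x * v b y) by ring, ← hN.proj x y,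
    Finset.sum_mul]
  exact Finset.sum_congr rfl fun i _ => by rw [hN.symm i x]; ring

theorem Form.pow_dvd_gram_det (hN : Form N T p l) {ι : Type*} [Fintype ι] [DecidableEq ι] (v : ι → β → ℤ) :
    (p : ℤ) ^ (Fintype.card ι - 1) ∣ (gram N v).det := by
  obtain ⟨w, h, hwh⟩ := hN.rankOne
  refine pow_dvd_det hN.ppow _ (fun a => w * ∑ x, v a x * h x) (fun b => ∑ x, v b x * h x) fun a b => ?_
  have e : gram N v a b - (w * ∑ x, v a x * h x) * ∑ y, v b y * h y =
      ∑ x, ∑ y, v a x * v b y * (N x y - w * h x * h y) := by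
    rw [mul_assoc, Finset.sum_mul_sum]
    simp only [gram, pairing, Finset.mul_sum, ← Finset.sum_sub_distrib]
    exact Finset.sum_congr rfl fun x _ => Finset.sum_congr rfl fun y _ => by ring
  rw [e]
  exact Finset.dvd_sum fun x _ => Finset.dvd_sum fun y _ => (hwh x y).mul_left _

section Extend

variable [DecidableEq β] {ι : Type*} [Fintype ι] [DecidableEq ι]

/-- The Gram matrix over the reals. -/
noncomputable def gramR (N : β → β → ℤ) (v : ι → β → ℤ) : Matrix ι ι ℝ := (gram N v).map (↑)

theorem det_gramR (v : ι → β → ℤ) : (gramR N v).det = ((gram N v).det : ℝ) :=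
  (RingHom.map_det (Int.castRingHom ℝ) (gram N v)).symm

theorem Form.posSemidef (hN : Form N T p l) (v : ι → β → ℤ) : (gramR N v).PosSemidef := by
  set W : Matrix T ι ℝ := fun i a => (pairing N (v a) i : ℝ) with hW
  have e : gramR N v = ((p : ℝ)⁻¹) • (Wᴴ * W) := by
    ext a b
    have h := congrArg (Int.cast : ℤ → ℝ) (hN.gram_eq v a b)
    push_cast at h
    rw [Matrix.smul_apply, Matrix.mul_apply, smul_eq_mul, eq_inv_mul_iff_mul_eq₀ (Nat.cast_ne_zero.2 hN.pos.ne')]
    simp only [gramR, Matrix.map_apply, Matrix.conjTranspose_apply, star_trivial, hW]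
    rw [h]
    exact (Finset.sum_coe_sort T fun i => (pairing N (v a) i : ℝ) * (pairing N (v b) i : ℝ)).symm
  rw [e]
  exact (Matrix.posSemidef_conjTranspose_mul_self W).smul (by positivity)

theorem Form.det_nonneg (hN : Form N T p l) (v : ι → β → ℤ) : 0 ≤ (gram N v).det := by
  have h := (hN.posSemidef v).det_nonneg
  rw [det_gramR] at h
  exact_mod_cast h

/-- The family with one coordinate vector added. -/
def extend (v : ι → β → ℤ) (i : β) : ι ⊕ Unit → β → ℤ := Sum.elim v fun _ => Pi.single i 1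

theorem Form.det_extend (hN : Form N T p l) (v : ι → β → ℤ) (hv : (gram N v).det ≠ 0) (i : β) :
    ((gram N (extend v i)).det : ℝ) = ((gram N v).det : ℝ) *
      ((N i i : ℝ) - (fun a => (pairing N (v a) i : ℝ)) ⬝ᵥ (gramR N v)⁻¹ *ᵥ fun a => (pairing N (v a) i : ℝ)) := by
  have hd : (gramR N v).det ≠ 0 := by rw [det_gramR]; exact_mod_cast hv
  letI := Matrix.invertibleOfIsUnitDet _ (isUnit_iff_ne_zero.2 hd)
  have hright : ∀ a, gram N (extend v i) (.inl a) (.inr ()) = pairing N (v a) i := fun a => by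
    simp only [gram, extend, Sum.elim_inl, Sum.elim_inr, pairing, Pi.single_apply, mul_ite, mul_one, mul_zero,
      Finset.sum_ite_eq', Finset.mem_univ, if_true]
    exact Finset.sum_congr rfl fun x _ => by rw [hN.symm i x, mul_comm]
  have hleft : ∀ a, gram N (extend v i) (.inr ()) (.inl a) = pairing N (v a) i := fun a => by
    simp [gram, extend, Pi.single_apply]
  have hcorner : gram N (extend v i) (.inr ()) (.inr ()) = N i i := by
    simp [gram, extend, pairing, Pi.single_apply]
  have e : gramR N (extend v i) = Matrix.fromBlocks (gramR N v) (Matrix.of fun a (_ : Unit) => (pairing N (v a) i : ℝ))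
      (Matrix.of fun (_ : Unit) b => (pairing N (v b) i : ℝ)) (Matrix.of fun (_ : Unit) (_ : Unit) => (N i i : ℝ)) := by
    ext a b
    rcases a with a | a <;> rcases b with b | b
    · simp [gramR, gram, extend]
    · simp [gramR, hright]
    · simp [gramR, hleft]
    · simp [gramR, hcorner]
  rw [← det_gramR, ← det_gramR, e, Matrix.det_fromBlocks₁₁]
  congr 1
  rw [Matrix.det_unique, Matrix.invOf_eq_nonsing_inv]
  simp only [Matrix.sub_apply, Matrix.of_apply, Matrix.mul_apply, dotProduct, Matrix.mulVec, Finset.sum_mul,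
    Finset.mul_sum]
  congr 1
  rw [Finset.sum_comm]
  exact Finset.sum_congr rfl fun a _ => Finset.sum_congr rfl fun b _ => by ring

theorem Form.det_extend_le (hN : Form N T p l) (v : ι → β → ℤ) (hv : (gram N v).det ≠ 0) (i : β) :
    (gram N (extend v i)).det ≤ (gram N v).det * N i i := by
  have h1 := hN.det_extend v hv i
  have h2 := (hN.posSemidef v).inv.dotProduct_mulVec_nonneg fun a => (pairing N (v a) i : ℝ)
  rw [star_trivial] at h2
  have h3 : (0 : ℝ) ≤ ((gram N v).det : ℝ) := by exact_mod_cast hN.det_nonneg v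
  have h4 : ((gram N (extend v i)).det : ℝ) ≤ ((gram N v).det : ℝ) * (N i i : ℝ) := by
    rw [h1]
    exact mul_le_mul_of_nonneg_left (sub_le_self _ h2) h3
  exact_mod_cast h4

theorem Form.sum_det_extend (hN : Form N T p l) (v : ι → β → ℤ) (hv : (gram N v).det ≠ 0) :
    ∑ i ∈ T, (gram N (extend v i)).det = (p : ℤ) * ((l : ℤ) - Fintype.card ι) * (gram N v).det := by
  set G := gramR N v with hG
  have hd : IsUnit G.det := isUnit_iff_ne_zero.2 (by rw [hG, det_gramR]; exact_mod_cast hv)
  have hq : ∑ i ∈ T, ((fun a => (pairing N (v a) i : ℝ)) ⬝ᵥ G⁻¹ *ᵥ fun a => (pairing N (v a) i : ℝ)) =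
      (p : ℝ) * Fintype.card ι := by
    rw [Finset.sum_congr rfl fun i _ => show (fun a => (pairing N (v a) i : ℝ)) ⬝ᵥ G⁻¹ *ᵥ (fun a => (pairing N (v a) i : ℝ)) =
      ∑ a, ∑ b, (pairing N (v a) i : ℝ) * (G⁻¹ a b * (pairing N (v b) i : ℝ)) from
      Finset.sum_congr rfl fun a _ => Finset.mul_sum _ _ _]
    rw [Finset.sum_comm, Finset.sum_congr rfl fun a _ => Finset.sum_comm (s := T)]
    have e : ∀ a b, ∑ i ∈ T, (pairing N (v a) i : ℝ) * (G⁻¹ a b * (pairing N (v b) i : ℝ)) =
        G⁻¹ a b * ((p : ℝ) * G b a) := fun a b => by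
      have h := congrArg (Int.cast : ℤ → ℝ) (hN.gram_eq v b a)
      push_cast at h
      rw [show G b a = (gram N v b a : ℝ) from rfl, h, Finset.mul_sum]
      exact Finset.sum_congr rfl fun i _ => by ring
    rw [Finset.sum_congr rfl fun a _ => Finset.sum_congr rfl fun b _ => (e a b).trans (mul_assoc _ _ _).symm]
    have h1 : ∀ a, ∑ b, G⁻¹ a b * (p : ℝ) * G b a = (p : ℝ) := fun a => by
      have h := congrFun (congrFun (Matrix.nonsing_inv_mul G hd) a) a
      rw [Matrix.mul_apply, Matrix.one_apply_eq] at h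
      rw [Finset.sum_congr rfl fun b _ => show G⁻¹ a b * (p : ℝ) * G b a = (p : ℝ) * (G⁻¹ a b * G b a) by ring,
        ← Finset.mul_sum, h, mul_one]
    rw [Finset.sum_congr rfl fun a _ => h1 a, Finset.sum_const, nsmul_eq_mul, Finset.card_univ, mul_comm]
  have hR : (((∑ i ∈ T, (gram N (extend v i)).det : ℤ)) : ℝ) =
      (((p : ℤ) * ((l : ℤ) - Fintype.card ι) * (gram N v).det : ℤ) : ℝ) := by
    rw [Int.cast_sum, Int.cast_mul, Int.cast_mul, Int.cast_sub, Int.cast_natCast, Int.cast_natCast, Int.cast_natCast,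
      Finset.sum_congr rfl fun i _ => hN.det_extend v hv i, ← Finset.mul_sum, Finset.sum_sub_distrib, ← hG, hq]
    have ht := congrArg (Int.cast : ℤ → ℝ) hN.trace
    push_cast at ht
    rw [ht]
    ring
  exact_mod_cast hR

end Extend

/-- The descent: a nonsingular family of `n` vectors has Gram determinant at least `p ^ (n - 1) * (l + 1 - n)`. -/
theorem Form.gram_det_ge [DecidableEq β] (hN : Form N T p l) : ∀ (m : ℕ) (ι : Type) [Fintype ι] [DecidableEq ι]
    (v : ι → β → ℤ), 1 ≤ Fintype.card ι → m + Fintype.card ι = l → (gram N v).det ≠ 0 →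
      (p : ℤ) ^ (Fintype.card ι - 1) * ((m : ℤ) + 1) ≤ (gram N v).det := by
  intro m
  induction m with
  | zero =>
    intro ι _ _ v _ _ hv
    rw [Nat.cast_zero, zero_add, mul_one]
    exact Int.le_of_dvd (lt_of_le_of_ne (hN.det_nonneg v) (Ne.symm hv)) (hN.pow_dvd_gram_det v)
  | succ m ih =>
    intro ι _ _ v h1 hl hv
    set D := (gram N v).det with hD
    have hD0 : 0 < D := lt_of_le_of_ne (hN.det_nonneg v) (Ne.symm hv)
    set S := T.filter fun i => (gram N (extend v i)).det ≠ 0 with hS
    have hsum := hN.sum_det_extend v hv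
    rw [← Finset.sum_filter_ne_zero, ← hS, ← hD, show (l : ℤ) - Fintype.card ι = (m : ℤ) + 1 by omega] at hsum
    have hne : S.Nonempty := by
      by_contra h
      rw [Finset.not_nonempty_iff_eq_empty.1 h, Finset.sum_empty] at hsum
      have : (0 : ℤ) < (p : ℤ) * ((m : ℤ) + 1) * D :=
        mul_pos (mul_pos (Int.natCast_pos.2 hN.pos) (by omega)) hD0
      omega
    have hlt : ∑ i ∈ S, (gram N (extend v i)).det < ∑ _i ∈ S, D * p := by
      refine Finset.sum_lt_sum_of_nonempty hne fun i hi => ?_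
      exact (hN.det_extend_le v hv i).trans_lt
        (mul_lt_mul_of_pos_left (hN.lt i (Finset.mem_filter.1 hi).1) hD0)
    rw [hsum, Finset.sum_const, nsmul_eq_mul] at hlt
    have hcard : (m : ℤ) + 2 ≤ S.card := by
      have hpD : (0 : ℤ) < D * p := mul_pos hD0 (Int.natCast_pos.2 hN.pos)
      have hlt' : ((m : ℤ) + 1) * (D * p) < (S.card : ℤ) * (D * p) := by
        calc ((m : ℤ) + 1) * (D * p) = (p : ℤ) * ((m : ℤ) + 1) * D := by ring
          _ < _ := hlt
      have := lt_of_mul_lt_mul_right hlt' hpD.le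
      omega
    set P := (p : ℤ) ^ (Fintype.card ι - 1) with hP
    have hge : ∑ _i ∈ S, P * p * ((m : ℤ) + 1) ≤ ∑ i ∈ S, (gram N (extend v i)).det := by
      refine Finset.sum_le_sum fun i hi => ?_
      have h := ih (ι ⊕ Unit) (extend v i) (by simp) (by simp; omega) (Finset.mem_filter.1 hi).2
      rwa [Fintype.card_sum, Fintype.card_unit, Nat.add_sub_cancel,
        ← Nat.sub_add_cancel h1, pow_succ] at h
    rw [hsum, Finset.sum_const, nsmul_eq_mul] at hge
    have h2 : (S.card : ℤ) * P * ((p : ℤ) * ((m : ℤ) + 1)) ≤ D * ((p : ℤ) * ((m : ℤ) + 1)) := by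
      calc (S.card : ℤ) * P * ((p : ℤ) * ((m : ℤ) + 1)) = (S.card : ℤ) * (P * p * ((m : ℤ) + 1)) := by ring
        _ ≤ _ := hge
        _ = _ := by ring
    have h3 := le_of_mul_le_mul_right h2 (mul_pos (Int.natCast_pos.2 hN.pos) (by omega))
    refine le_trans ?_ h3
    rw [mul_comm (S.card : ℤ)]
    push_cast
    exact mul_le_mul_of_nonneg_left (by linarith) (pow_nonneg (Int.natCast_nonneg p) _)

/-- A value of the form which is not zero is at least `l`. -/
theorem Form.value_ge (hN : Form N T p l) (hl : 1 ≤ l) (c : β → ℤ) (hc : ∑ x, c x * pairing N c x ≠ 0) :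
    (l : ℤ) ≤ ∑ x, c x * pairing N c x := by
  classical
  have hdet : (gram N fun _ : Unit => c).det = ∑ x, c x * pairing N c x := by rw [Matrix.det_unique]; rfl
  have h := hN.gram_det_ge (l - 1) Unit (fun _ => c) (by simp) (by simp; omega) (by rw [hdet]; exact hc)
  rw [hdet, Fintype.card_unit, Nat.sub_self, pow_zero, one_mul] at h
  omega

end CfsgLib.BrauerFeit
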