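import Cfsg.Agent.BrauerFeit.Lattice
import Cfsg.Agent.BrauerFeit.Central
import Cfsg.Agent.Blocks.InducedDefect
import Cfsg.Agent.Blocks.DefectConj
import Cfsg.Agent.Blocks.Heights

/-!
# The bound of Brauer and Feit on the number of characters of a block
-/

set_option autoImplicit false
set_option linter.unusedSectionVars false
set_option linter.style.haveILetI false

namespace CfsgLib.BrauerFeit

open Cfsg CfsgLib CfsgLib.CharBasics CfsgLib.Blocks Polynomial
open scoped ComplexConjugate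

universe u

/-- The sum over the nontrivial roots of unity of a sesquilinear expression. -/
theorem sum_conjugates {p : ℕ} (hp : p.Prime) (A : ℕ → ℕ → ℂ) :
    ∑ j ∈ coprimeResidues p, ∑ m ∈ Finset.range p, ∑ n ∈ Finset.range p,
        A m n * ((zetaRoot p ^ j) ^ m * conj ((zetaRoot p ^ j) ^ n)) =
      (p : ℂ) * ∑ m ∈ Finset.range p, A m m - ∑ m ∈ Finset.range p, ∑ n ∈ Finset.range p, A m n := by
  have hz := zetaRoot_prim hp.ne_zero
  have hset : coprimeResidues p = (Finset.range p).erase 0 := by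
    ext j
    simp only [coprimeResidues, Finset.mem_filter, Finset.mem_erase, Finset.mem_range]
    constructor
    · rintro ⟨h1, h2⟩
      exact ⟨by rintro rfl; exact hp.ne_one (Nat.coprime_zero_left p |>.1 h2), h1⟩
    · rintro ⟨h1, h2⟩
      exact ⟨h2, (hp.coprime_iff_not_dvd.2 fun h => h1 (Nat.eq_zero_of_dvd_of_lt h h2)).symm⟩
  have horth : ∀ m < p, ∀ n < p,
      ∑ j ∈ Finset.range p, (zetaRoot p ^ j) ^ m * conj ((zetaRoot p ^ j) ^ n) = if m = n then (p : ℂ) else 0 := by
    intro m hm n hn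
    set w := zetaRoot p ^ m * (zetaRoot p ^ n)⁻¹ with hw
    have hn1 : ‖zetaRoot p ^ n‖ = 1 := by
      rw [norm_pow, Complex.norm_eq_one_of_pow_eq_one hz.pow_eq_one hp.ne_zero, one_pow]
    have hterm : ∀ j, (zetaRoot p ^ j) ^ m * conj ((zetaRoot p ^ j) ^ n) = w ^ j := fun j => by
      rw [hw, mul_pow, pow_right_comm _ j m, pow_right_comm _ j n, map_pow, ← Complex.inv_eq_conj hn1]
    rw [Finset.sum_congr rfl fun j _ => hterm j]
    split_ifs with h
    · subst h
      rw [hw, mul_inv_cancel₀ (pow_ne_zero _ (hz.ne_zero hp.ne_zero))]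
      simp
    · have hwp : w ^ p = 1 := by
        rw [hw, mul_pow, inv_pow, pow_right_comm _ m p, pow_right_comm _ n p, hz.pow_eq_one,
          one_pow, one_pow, inv_one, mul_one]
      have hw1 : w ≠ 1 := fun e => h (hz.pow_inj hm hn (by
        rwa [hw, mul_inv_eq_one₀ (pow_ne_zero _ (hz.ne_zero hp.ne_zero))] at e))
      rw [geom_sum_eq hw1, hwp, sub_self, zero_div]
  rw [hset, Finset.sum_erase_eq_sub (Finset.mem_range.2 hp.pos)]
  congr 1
  · rw [Finset.sum_comm, Finset.mul_sum]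
    refine Finset.sum_congr rfl fun m hm => ?_
    rw [Finset.sum_comm, Finset.sum_congr rfl fun n hn => by
      rw [← Finset.mul_sum, horth m (Finset.mem_range.1 hm) n (Finset.mem_range.1 hn)]]
    simp only [mul_ite, mul_zero]
    rw [Finset.sum_ite_eq, if_pos hm, mul_comm]
  · simp

section Spread

variable {β : Type*} [Fintype β] [DecidableEq β] {N : β → β → ℤ} {T : Finset β} {p l : ℕ}

/-- Vectors which are not all congruent modulo the radical spread by at least `(p - 1) * l`. -/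
theorem Form.spread (hN : Form N T p l) (hl : 1 ≤ l) (c : ℕ → β → ℤ)
    (hpos : 0 < (p : ℤ) * ∑ m ∈ Finset.range p, gram N c m m -
      ∑ m ∈ Finset.range p, ∑ n ∈ Finset.range p, gram N c m n) :
    ((p : ℤ) - 1) * l ≤ (p : ℤ) * ∑ m ∈ Finset.range p, gram N c m m -
      ∑ m ∈ Finset.range p, ∑ n ∈ Finset.range p, gram N c m n := by
  classical
  set R := (p : ℤ) * ∑ m ∈ Finset.range p, gram N c m m -
    ∑ m ∈ Finset.range p, ∑ n ∈ Finset.range p, gram N c m n with hR
  set Q := fun m n => gram N (fun _ : Unit => c m - c n) () () with hQ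
  have hlin : ∀ (a b : β → ℤ) x, pairing N (a - b) x = pairing N a x - pairing N b x := fun a b x => by
    simp only [pairing, Pi.sub_apply, mul_sub, Finset.sum_sub_distrib]
  have hexp : ∀ m n, Q m n = gram N c m m + gram N c n n - gram N c m n - gram N c n m := fun m n => by
    simp only [hQ, gram, hlin, Pi.sub_apply, sub_mul, mul_sub, Finset.sum_sub_distrib]
    ring
  have hRQ : 2 * R = ∑ m ∈ Finset.range p, ∑ n ∈ Finset.range p, Q m n := by
    simp only [hexp, Finset.sum_sub_distrib, Finset.sum_add_distrib, Finset.sum_const, Finset.card_range,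
      nsmul_eq_mul, ← Finset.mul_sum]
    rw [Finset.sum_comm (f := fun m n => gram N c n m), hR]
    ring
  have hQ0 : ∀ m n, 0 ≤ Q m n := fun m n => by
    have h := hN.det_nonneg fun _ : Unit => c m - c n
    rwa [Matrix.det_unique] at h
  set u := fun m => fun i : T => pairing N (c m) i with hu
  have hQeq : ∀ m n, (p : ℤ) * Q m n = ∑ i : T, (u m i - u n i) ^ 2 := fun m n => by
    rw [hQ, hN.gram_eq, ← Finset.sum_coe_sort T]
    exact Finset.sum_congr rfl fun i _ => by simp only [hlin, hu, pow_two]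
  have hge : ∀ m n, u m ≠ u n → (l : ℤ) ≤ Q m n := fun m n hne => by
    refine hN.value_ge hl (c m - c n) fun h0 => hne (funext fun i => ?_)
    have h1 : (p : ℤ) * Q m n = 0 := by
      rw [show Q m n = ∑ x, (c m - c n) x * pairing N (c m - c n) x from rfl, h0, mul_zero]
    rw [hQeq, Finset.sum_eq_zero_iff_of_nonneg fun i _ => sq_nonneg _] at h1
    exact sub_eq_zero.1 ((pow_eq_zero_iff two_ne_zero).1 (h1 i (Finset.mem_univ _)))
  have hzero : ∀ m n, u m = u n → Q m n = 0 := fun m n e => by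
    have h := hQeq m n
    rw [e] at h
    simpa [hN.pos.ne'] using h
  set A := (Finset.range p).filter fun n => u n = u 0 with hA
  set A' := (Finset.range p).filter fun n => ¬ u n = u 0 with hA'
  have hne : A'.Nonempty := by
    by_contra h
    rw [Finset.not_nonempty_iff_eq_empty, hA', Finset.filter_eq_empty_iff] at h
    have : ∑ m ∈ Finset.range p, ∑ n ∈ Finset.range p, Q m n = 0 :=
      Finset.sum_eq_zero fun m hm => Finset.sum_eq_zero fun n hn =>
        hzero m n ((not_not.1 (h hm)).trans (not_not.1 (h hn)).symm)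
    omega
  have h0A : 0 ∈ A := Finset.mem_filter.2 ⟨Finset.mem_range.2 hN.pos, rfl⟩
  have hcard : (A.card : ℤ) + A'.card = p := by
    exact_mod_cast (Finset.card_filter_add_card_filter_not (fun n => u n = u 0)).trans (Finset.card_range p)
  have hkey : ∀ (S S' : Finset ℕ), (∀ m ∈ S, ∀ n ∈ S', u m ≠ u n) →
      (S.card : ℤ) * S'.card * l ≤ ∑ m ∈ S, ∑ n ∈ S', Q m n := fun S S' h => by
    calc (S.card : ℤ) * S'.card * l = ∑ _m ∈ S, ∑ _n ∈ S', (l : ℤ) := by
          simp only [Finset.sum_const, nsmul_eq_mul]; ring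
      _ ≤ _ := Finset.sum_le_sum fun m hm => Finset.sum_le_sum fun n hn => hge m n (h m hm n hn)
  have hsplit : ∀ f : ℕ → ℤ, ∑ n ∈ Finset.range p, f n = ∑ n ∈ A, f n + ∑ n ∈ A', f n := fun f =>
    (Finset.sum_filter_add_sum_filter_not _ _ _).symm
  rw [hsplit, Finset.sum_congr rfl fun m _ => hsplit (Q m), Finset.sum_congr rfl fun m _ => hsplit (Q m),
    Finset.sum_add_distrib, Finset.sum_add_distrib] at hRQ
  have h1 := hkey A A' fun m hm n hn e => (Finset.mem_filter.1 hn).2 (e.symm.trans (Finset.mem_filter.1 hm).2)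
  have h2 := hkey A' A fun m hm n hn e => (Finset.mem_filter.1 hm).2 (e.trans (Finset.mem_filter.1 hn).2)
  have h3 : (0 : ℤ) ≤ ∑ m ∈ A, ∑ n ∈ A, Q m n := Finset.sum_nonneg fun m _ => Finset.sum_nonneg fun n _ => hQ0 m n
  have h4 : (0 : ℤ) ≤ ∑ m ∈ A', ∑ n ∈ A', Q m n := Finset.sum_nonneg fun m _ => Finset.sum_nonneg fun n _ => hQ0 m n
  have ha : (1 : ℤ) ≤ A.card := by exact_mod_cast Finset.card_pos.2 ⟨0, h0A⟩
  have ha' : (1 : ℤ) ≤ A'.card := by exact_mod_cast Finset.card_pos.2 hne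
  have h5 : ((p : ℤ) - 1) * l ≤ (A.card : ℤ) * A'.card * l :=
    mul_le_mul_of_nonneg_right (by nlinarith) (Int.natCast_nonneg _)
  linarith [mul_comm (A.card : ℤ) A'.card]

end Spread

section Two

variable {H : Type u} [Group H] [Fintype H] {p : ℕ} {M : Ideal AlgInt} {y : H} {b : Set (IrrCharacter H)}

/-- The form of a block of defect two with a central element of order `p`. -/
theorem form_of_central (hM : IsPModular p M) (hy : y ∈ Subgroup.center H) (hord : orderOf y = p)
    (hb : IsPBlock M b) {ξ₀ : IrrCharacter H} (h₀ : ξ₀ ∈ b) (hmin : ∀ ρ ∈ b, degExp p ξ₀ ≤ degExp p ρ)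
    (heq : ∀ ρ ∈ b, degExp p ρ = degExp p ξ₀) (hd : (Nat.card H).factorization p = degExp p ξ₀ + 2)
    (hl : 2 ≤ blockRank p b) [DecidablePred (· ∈ memFinset b)] :
    Form (fun x z : memFinset b => scaled p (degExp p ξ₀) x.1 z.1) ((trivSet b y).subtype (· ∈ memFinset b))
      p (blockRank p b) := by
  classical
  have hmem : ∀ ζ ∈ trivSet b y, ζ ∈ memFinset b := fun ζ h => mem_memFinset.2 (mem_trivSet.1 h).1
  have hp0 : (p : ℤ) ^ degExp p ξ₀ ≠ 0 := pow_ne_zero _ (Int.natCast_ne_zero.2 hM.1.ne_zero)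
  have hsym : ∀ ξ η : IrrCharacter H, scaled p (degExp p ξ₀) ξ η = scaled p (degExp p ξ₀) η ξ := fun ξ η => by
    simp only [scaled]; rw [regInt_comm hM.1]
  have hproj : ∀ ξ ∈ b, ∀ η : IrrCharacter H,
      ∑ ζ ∈ trivSet b y, scaled p (degExp p ξ₀) ξ ζ * scaled p (degExp p ξ₀) ζ η =
        (p : ℤ) * scaled p (degExp p ξ₀) ξ η := fun ξ hξ η => by
    rw [scaled_proj hM hy hord hb hmin hd hξ η, pow_one]
  have hunit : ∀ ξ ∈ b, ∀ η ∈ b, ¬ (p : ℤ) ∣ scaled p (degExp p ξ₀) ξ η := fun ξ hξ η hη h => by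
    refine regInt_not_dvd hM hb hξ (fun ρ hρ => by rw [heq ξ hξ, heq ρ hρ]) hη ?_
    rw [heq η hη, pow_succ, ← pow_mul_scaled hM hmin hξ η]
    exact mul_dvd_mul_left _ h
  refine ⟨⟨p, 1, hM.1, (pow_one p).symm⟩, fun x z => hsym _ _, fun x z => ?_, ?_, fun i hi => ?_, ?_⟩
  · rw [Finset.sum_subtype_of_mem (fun ζ => scaled p (degExp p ξ₀) x.1 ζ * scaled p (degExp p ξ₀) ζ z.1) hmem]
    exact hproj _ (mem_memFinset.1 x.2) _
  · rw [Finset.sum_subtype_of_mem (fun ζ => scaled p (degExp p ξ₀) ζ ζ) hmem,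
      scaled_trace hM hy hord hb hmin hd, pow_one]
  · show scaled p (degExp p ξ₀) i.1 i.1 < p
    have hiT : i.1 ∈ trivSet b y := Finset.mem_subtype.1 hi
    obtain ⟨j, hj, hji⟩ : ∃ j ∈ trivSet b y, j ≠ i.1 :=
      Finset.exists_mem_ne (lt_of_lt_of_le (by omega) (blockRank_le_trivSet hM hy hord hb)) i.1
    by_contra hlt
    push Not at hlt
    have hi1 := (mem_trivSet.1 hiT).1
    have hj0 : scaled p (degExp p ξ₀) i.1 j ≠ 0 := fun h =>
      hunit _ hi1 j (mem_trivSet.1 hj).1 (h ▸ dvd_zero _)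
    have h1 := hproj _ hi1 i.1
    rw [← Finset.add_sum_erase _ _ hiT] at h1
    have h2 : 0 < ∑ ζ ∈ (trivSet b y).erase i.1,
        scaled p (degExp p ξ₀) i.1 ζ * scaled p (degExp p ξ₀) ζ i.1 := by
      refine Finset.sum_pos' (fun ζ _ => by rw [hsym ζ]; exact mul_self_nonneg _)
        ⟨j, Finset.mem_erase.2 ⟨hji, hj⟩, ?_⟩
      rw [hsym j]
      exact mul_self_pos.2 hj0
    have h3 := mul_le_mul_of_nonneg_right hlt (le_trans (Int.natCast_nonneg p) hlt)
    linarith
  · obtain ⟨c, c', hcp, h1, hcc, hc'⟩ := exists_degree_eq hM.1 ξ₀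
    have hc0 : (c : ℂ) ≠ 0 := Nat.cast_ne_zero.2 fun h => hcp (h ▸ dvd_zero p)
    have hp' : (p : ℂ) ≠ 0 := Nat.cast_ne_zero.2 hM.1.ne_zero
    have hdiv : ∀ ξ ∈ b, ∀ η ∈ b, regSum p (ξ : H → ℂ) (η : H → ℂ) / (ξ₀ : H → ℂ) 1 =
        (c' : ℂ) * (scaled p (degExp p ξ₀) ξ η : ℂ) := fun ξ hξ η _ => by
      rw [regSum_eq_regInt hM.1 (isCharacter_of_irr ξ.2) (isCharacter_of_irr η.2), ← pow_mul_scaled hM hmin hξ η,
        hcc, h1]
      push_cast
      field_simp
    set r := fun ξ : IrrCharacter H => (ξ : H → ℂ) 1 / (ξ₀ : H → ℂ) 1 with hr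
    set W := omega (ξ₀ : H → ℂ) (regElt p (ξ₀ : H → ℂ)) with hW
    have hr0 : r ξ₀ = 1 := div_self (apply_one_ne_zero ξ₀.2)
    have hWR : MemLocalRing M W := memLocalRing_omega hM ξ₀ (isClassElt_regElt (isCharacter_of_irr ξ₀.2))
      (isIntegralElt_regElt hM (isCharacter_of_irr ξ₀.2))
    set S := fun ξ η : IrrCharacter H => scaled p (degExp p ξ₀) ξ η with hS
    have hc : ∀ ξ ∈ b, ∀ η ∈ b, MemLocalIdeal M ((c' : ℂ) * (S ξ η : ℂ) - r ξ * r η * W) := fun ξ hξ η hη => by
      have h := regSum_congr hM hb h₀ hmin hξ hη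
      rwa [hdiv ξ hξ η hη] at h
    have hdvd : ∀ ξ ∈ b, ∀ η ∈ b, (p : ℤ) ∣ S ξ η * S ξ₀ ξ₀ - S ξ ξ₀ * S η ξ₀ := fun ξ hξ η hη => by
      have hrξ := memLocalRing_degree_ratio hM hmin hξ
      have hrη := memLocalRing_degree_ratio hM hmin hη
      have hC : ∀ z : ℤ, MemLocalRing M ((c' : ℂ) * (z : ℂ)) := fun z =>
        memLocalRing_mul hM (memLocalRing_natCast hM c') (memLocalRing_intCast hM z)
      have a1 := memLocalIdeal_mul_left hM (hC (S ξ₀ ξ₀)) (hc ξ hξ η hη)
      have a2 := memLocalIdeal_mul_left hM (memLocalRing_mul hM (memLocalRing_mul hM hrξ hrη) hWR)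
        (hc ξ₀ h₀ ξ₀ h₀)
      have a3 := memLocalIdeal_mul_left hM (hC (S η ξ₀)) (hc ξ hξ ξ₀ h₀)
      have a4 := memLocalIdeal_mul_left hM (memLocalRing_mul hM hrξ hWR) (hc η hη ξ₀ h₀)
      have h5 := memLocalIdeal_sub hM (memLocalIdeal_add hM a1 a2) (memLocalIdeal_add hM a3 a4)
      have e : MemLocalIdeal M (((c' : ℤ) * c' * (S ξ η * S ξ₀ ξ₀ - S ξ ξ₀ * S η ξ₀) : ℤ) : ℂ) := by
        convert h5 using 1
        simp only [hr0]
        push_cast
        ring
      rw [memLocalIdeal_intCast_iff hM] at e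
      have hpp : Prime (p : ℤ) := Nat.prime_iff_prime_int.1 hM.1
      rcases hpp.dvd_mul.1 e with h | h
      · rcases hpp.dvd_mul.1 h with h | h <;> exact absurd (Int.natCast_dvd_natCast.1 h) hc'
      · exact h
    obtain ⟨w, z, hwz⟩ : IsCoprime (S ξ₀ ξ₀) (p : ℤ) :=
      ((Nat.prime_iff_prime_int.1 hM.1).coprime_iff_not_dvd.2 (hunit ξ₀ h₀ ξ₀ h₀)).symm
    refine ⟨w, fun x => S x.1 ξ₀, fun x x' => ?_⟩
    have h := hdvd x.1 (mem_memFinset.1 x.2) x'.1 (mem_memFinset.1 x'.2)
    have e : S x.1 x'.1 - w * S x.1 ξ₀ * S x'.1 ξ₀ =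
        w * (S x.1 x'.1 * S ξ₀ ξ₀ - S x.1 ξ₀ * S x'.1 ξ₀) + S x.1 x'.1 * (z * p) := by
      have : z * (p : ℤ) = 1 - w * S ξ₀ ξ₀ := by linarith
      rw [this]; ring
    show (p : ℤ) ∣ S x.1 x'.1 - _
    rw [e]
    exact dvd_add (h.mul_left _) (dvd_mul_of_dvd_right (dvd_mul_left _ _) _)

end Two

variable {p : ℕ} {M : Ideal AlgInt}

/-- A block of defect two with a major subsection of rank at least two. -/
theorem card_le_of_two {G : Type u} [Group G] [Fintype G] (hM : IsPModular p M) {B : Set (IrrCharacter G)}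
    {y : G} [Fintype (Subgroup.centralizer ({y} : Set G))] (hord : orderOf y = p)
    {b : Set (IrrCharacter (Subgroup.centralizer ({y} : Set G)))}
    (hind : IsInducedBlock M (Subgroup.centralizer ({y} : Set G)) b B) (hB2 : blockDefect p B = 2)
    (hb2 : blockDefect p b = 2) (hh : ∀ χ ∈ B, blockHeight p B (χ : G → ℂ) = 0) (hl : 2 ≤ blockRank p b) :
    Nat.card B ≤ p ^ 2 := by
  classical
  haveI : Fintype (IrrCharacter G) := @Fintype.ofFinite _ finite_irrCharacter
  obtain ⟨ξ₀, h₀, hmin₀, he₀⟩ := exists_min_degExp hM hind.1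
  obtain ⟨χ₁, hχ₁, hmin₁, he₁⟩ := exists_min_degExp hM hind.2.1
  have hd : (Nat.card (Subgroup.centralizer ({y} : Set G))).factorization p = degExp p ξ₀ + 2 := by
    have := blockDefect_eq he₀ ▸ hb2
    have := degExp_le hM.1 ξ₀
    omega
  have heq : ∀ ρ ∈ b, degExp p ρ = degExp p ξ₀ := fun ρ hρ => by
    have h := ((height_bounds hM hind.1).2 ρ hρ).2 hb2.ge
    rw [hb2, blockHeight_eq he₀] at h
    have := hmin₀ ρ hρ
    omega
  have hminB : ∀ χ ∈ B, ∀ τ ∈ B, degExp p χ ≤ degExp p τ := fun χ hχ τ hτ => by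
    have h := hh χ hχ
    rw [blockHeight_eq he₁] at h
    have := hmin₁ τ hτ
    omega
  set y' : Subgroup.centralizer ({y} : Set G) := ⟨y, Subgroup.mem_centralizer_singleton_iff.2 rfl⟩ with hy'
  have hy'c : y' ∈ Subgroup.center (Subgroup.centralizer ({y} : Set G)) :=
    Subgroup.mem_center_iff.2 fun c => Subtype.ext (Subgroup.mem_centralizer_singleton_iff.1 c.2)
  have hF := form_of_central hM hy'c (by rw [hy', ← Subgroup.orderOf_coe]; exact hord) hind.1 h₀ hmin₀ heq hd hl
  set NN := fun x z : memFinset b => scaled p (degExp p ξ₀) x.1 z.1 with hNN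
  have hx : ∃ k : ℕ, orderOf y = p ^ k := ⟨1, by rw [hord, pow_one]⟩
  have hdvd : orderOf y ∣ p ^ 1 := by rw [hord, pow_one]
  have hp1 : p ^ 1 = p := pow_one p
  have hX : (X ^ p - C 1 : ℤ[X]).Monic := monic_X_pow_sub_C _ hM.1.ne_zero
  set cv := fun (χ : IrrCharacter G) (m : ℕ) (x : memFinset b) => (shiftPoly y χ x.1 %ₘ (X ^ p - C 1)).coeff m with hcv
  have haev : ∀ (χ : IrrCharacter G) (x : memFinset b) (z : ℂ), z ^ p = 1 →
      aeval z (shiftPoly y χ x.1) = ∑ m ∈ Finset.range p, (cv χ m x : ℂ) * z ^ m := by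
    intro χ x z hz
    conv_lhs => rw [← modByMonic_add_div (shiftPoly y χ x.1) (X ^ p - C 1), map_add, map_mul,
      show aeval z (X ^ p - C 1 : ℤ[X]) = 0 by simp [hz], zero_mul, add_zero]
    rw [aeval_eq_sum_range' (n := p) ?_]
    · exact Finset.sum_congr rfl fun m _ => zsmul_eq_mul _ _
    · by_cases h0 : shiftPoly y χ x.1 %ₘ (X ^ p - C 1) = 0
      · rw [h0, natDegree_zero]; exact hM.1.pos
      · calc (shiftPoly y χ x.1 %ₘ (X ^ p - C 1)).natDegree < (X ^ p - C 1 : ℤ[X]).natDegree :=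
            natDegree_modByMonic_lt _ hX (fun h => by
              have := congrArg natDegree h
              rw [natDegree_X_pow_sub_C, natDegree_one] at this
              exact hM.1.ne_zero this)
          _ = p := natDegree_X_pow_sub_C
  set R := fun χ : IrrCharacter G => (p : ℤ) * ∑ m ∈ Finset.range p, gram NN (cv χ) m m -
    ∑ m ∈ Finset.range p, ∑ n ∈ Finset.range p, gram NN (cv χ) m n with hR
  set P := fun (j : ℕ) (χ : IrrCharacter G) =>
    (aeval (zetaRoot (p ^ 1) ^ j) (contribPoly p (p ^ 1) y b (degExp p ξ₀) χ χ)).re with hP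
  have hform : ∀ (χ : IrrCharacter G) (z : ℂ), z ^ p = 1 → aeval z (contribPoly p (p ^ 1) y b (degExp p ξ₀) χ χ) =
      ∑ m ∈ Finset.range p, ∑ n ∈ Finset.range p, (gram NN (cv χ) m n : ℂ) * (z ^ m * conj (z ^ n)) := by
    intro χ z hz
    rw [aeval_contrib_eq, hord, hp1, Nat.div_self hM.1.pos, pow_one, ← conj_eq_pow hM.1.ne_zero hz]
    have hL : ∑ ξ ∈ memFinset b, ∑ η ∈ memFinset b, ((regInt p
          (ξ : Subgroup.centralizer ({y} : Set G) → ℂ) (η : Subgroup.centralizer ({y} : Set G) → ℂ) /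
          (p : ℤ) ^ degExp p ξ₀ : ℤ) : ℂ) * aeval z (shiftPoly y χ ξ) * aeval (conj z) (shiftPoly y χ η) =
        ∑ x : memFinset b, ∑ x' : memFinset b,
          (NN x x' : ℂ) * aeval z (shiftPoly y χ x.1) * conj (aeval z (shiftPoly y χ x'.1)) := by
      rw [← Finset.sum_coe_sort (memFinset b)]
      refine Finset.sum_congr rfl fun x _ => ?_
      rw [← Finset.sum_coe_sort (memFinset b)]
      exact Finset.sum_congr rfl fun x' _ => by rw [conj_aeval]; rfl
    rw [hL]
    simp only [haev χ _ z hz, gram, pairing, Int.cast_sum, Int.cast_mul, Finset.mul_sum, Finset.sum_mul,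
      map_sum, map_mul, map_intCast, map_pow]
    rw [Finset.sum_congr rfl fun x _ => Finset.sum_comm, Finset.sum_comm]
    rw [Finset.sum_congr rfl fun n _ => Finset.sum_congr rfl fun x _ => Finset.sum_comm,
      Finset.sum_congr rfl fun n _ => Finset.sum_comm, Finset.sum_comm]
    exact Finset.sum_congr rfl fun m _ => Finset.sum_congr rfl fun n _ =>
      Finset.sum_congr rfl fun x _ => Finset.sum_congr rfl fun x' _ => by ring
  have hz : ∀ j : ℕ, (zetaRoot p ^ j) ^ p = 1 := fun j => by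
    rw [← pow_mul, mul_comm, pow_mul, (zetaRoot_prim hM.1.ne_zero).pow_eq_one, one_pow]
  have hsum : ∀ χ, ∑ j ∈ coprimeResidues (p ^ 1), P j χ = (R χ : ℝ) := fun χ => by
    simp only [hP]
    have h : ∀ j, aeval (zetaRoot (p ^ 1) ^ j) (contribPoly p (p ^ 1) y b (degExp p ξ₀) χ χ) =
        ∑ m ∈ Finset.range p, ∑ n ∈ Finset.range p,
          (gram NN (cv χ) m n : ℂ) * ((zetaRoot p ^ j) ^ m * conj ((zetaRoot p ^ j) ^ n)) := fun j => by
      rw [hform χ _ (by rw [hp1]; exact hz j), hp1]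
    rw [← Complex.re_sum, Finset.sum_congr rfl fun j _ => h j, hp1, sum_conjugates hM.1]
    rw [hR]
    push_cast
    simp
  have hN : p ^ 1 ≠ 0 := pow_ne_zero _ hM.1.ne_zero
  set φ := ((coprimeResidues (p ^ 1)).card : ℝ) with hφ
  have hφv : φ = (p : ℝ) - 1 := by
    rw [hφ, hp1]
    have e : coprimeResidues p = (Finset.range p).filter fun j => j.Coprime p := rfl
    have : (coprimeResidues p).card = p.totient := by
      rw [e, Nat.totient_eq_card_coprime]
      exact congrArg Finset.card (Finset.filter_congr fun j _ => Nat.coprime_comm)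
    rw [this, Nat.totient_prime hM.1, Nat.cast_sub hM.1.one_le, Nat.cast_one]
  have hd' : (Nat.card (Subgroup.centralizer ({y} : Set G))).factorization p - degExp p ξ₀ = 2 := by omega
  have hrow : ∀ χ ∈ B, φ * blockRank p b ≤ ∑ j ∈ coprimeResidues (p ^ 1), P j χ := by
    intro χ hχ
    have h := card_mul_le_sum_re hM hx hind h₀ hmin₀ (K := 1) hdvd {χ} (fun ρ hρ => by
      rw [Finset.mem_singleton.1 hρ]; exact ⟨hχ, hminB χ hχ⟩) (Finset.mem_singleton_self χ)
    rw [hd', Finset.card_singleton, Nat.cast_one, mul_one] at h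
    have hpos : (0 : ℝ) < ∑ j ∈ coprimeResidues (p ^ 1), P j χ :=
      pos_of_mul_pos_right ((Nat.cast_pos.2 (coprimeResidues_card_pos hN)).trans_le h) (by positivity)
    rw [hsum] at hpos ⊢
    rw [hφv]
    have h2 := hF.spread (by omega) (cv χ) (by exact_mod_cast hpos)
    exact_mod_cast h2
  have hnn : ∀ j ∈ coprimeResidues (p ^ 1), ∀ χ : IrrCharacter G, 0 ≤ P j χ := by
    intro j hj χ
    have h := sum_normSq_contrib hM hx hind.1 hN hdvd hmin₀ (Finset.mem_filter.1 hj).2 χ
    rw [hd'] at h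
    exact nonneg_of_mul_nonneg_right (h ▸ Finset.sum_nonneg fun _ _ => by positivity)
      (pow_pos (Nat.cast_pos.2 hM.1.pos) _)
  have htot : ∀ j ∈ coprimeResidues (p ^ 1), ∑ χ : IrrCharacter G, P j χ = (p : ℝ) ^ 2 * blockRank p b := by
    intro j hj
    have h := congrArg Complex.re (sum_contrib_diag hM hx hind.1 hN hdvd hmin₀ (Finset.mem_filter.1 hj).2)
    rw [hd', Complex.re_sum] at h
    rw [h, show ((p : ℂ) ^ 2 * (blockRank p b : ℕ)) = (((p : ℝ) ^ 2 * blockRank p b : ℝ) : ℂ) by push_cast; rfl,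
      Complex.ofReal_re]
  set S := memFinset B with hS
  have h1 : φ * blockRank p b * S.card ≤ φ * blockRank p b * (p : ℝ) ^ 2 := by
    calc φ * blockRank p b * S.card = ∑ _χ ∈ S, φ * blockRank p b := by rw [Finset.sum_const, nsmul_eq_mul]; ring
      _ ≤ ∑ χ ∈ S, ∑ j ∈ coprimeResidues (p ^ 1), P j χ :=
        Finset.sum_le_sum fun χ hχ => hrow χ (mem_memFinset.1 hχ)
      _ = ∑ j ∈ coprimeResidues (p ^ 1), ∑ χ ∈ S, P j χ := Finset.sum_comm
      _ ≤ ∑ j ∈ coprimeResidues (p ^ 1), (p : ℝ) ^ 2 * blockRank p b := by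
        refine Finset.sum_le_sum fun j hj => ?_
        rw [← htot j hj]
        exact Finset.sum_le_sum_of_subset_of_nonneg (Finset.subset_univ _) fun χ _ _ => hnn j hj χ
      _ = _ := by rw [Finset.sum_const, nsmul_eq_mul, hφ]; ring
  have hcard : Nat.card B = S.card := by
    rw [hS, ← Fintype.card_coe, ← Nat.card_eq_fintype_card]
    exact Nat.card_congr (Equiv.subtypeEquivRight fun _ => mem_memFinset.symm)
  rw [hcard]
  have h2 := le_of_mul_le_mul_left h1 (mul_pos (Nat.cast_pos.2 (coprimeResidues_card_pos hN))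
    (Nat.cast_pos.2 (by omega : 0 < blockRank p b)))
  exact_mod_cast h2

/-- All heights zero and a major subsection. -/
theorem card_sq_le {G : Type u} [Group G] [Fintype G] (hM : IsPModular p M) {B : Set (IrrCharacter G)}
    {y : G} [Fintype (Subgroup.centralizer ({y} : Set G))] (hx : ∃ k : ℕ, orderOf y = p ^ k)
    {b : Set (IrrCharacter (Subgroup.centralizer ({y} : Set G)))}
    (hind : IsInducedBlock M (Subgroup.centralizer ({y} : Set G)) b B) {d : ℕ}
    (hbd : blockDefect p b = d) (hh : ∀ χ ∈ B, blockHeight p B (χ : G → ℂ) = 0) :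
    Nat.card B ^ 2 ≤ p ^ (2 * d) * blockRank p b := by
  classical
  haveI : Fintype (IrrCharacter G) := @Fintype.ofFinite _ finite_irrCharacter
  obtain ⟨ξ₀, h₀, hmin₀, he₀⟩ := exists_min_degExp hM hind.1
  obtain ⟨χ₁, hχ₁, hmin₁, he₁⟩ := exists_min_degExp hM hind.2.1
  obtain ⟨K, hK⟩ := hx
  have hx : ∃ k : ℕ, orderOf y = p ^ k := ⟨K, hK⟩
  have hN : p ^ K ≠ 0 := pow_ne_zero _ hM.1.ne_zero
  set S := memFinset B with hS
  have hS' : ∀ ρ ∈ S, ρ ∈ B ∧ ∀ τ ∈ B, degExp p ρ ≤ degExp p τ := by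
    intro ρ hρ
    refine ⟨mem_memFinset.1 hρ, fun τ hτ => ?_⟩
    have h := hh ρ (mem_memFinset.1 hρ)
    rw [blockHeight_eq he₁] at h
    have := hmin₁ τ hτ
    omega
  have hd' : (Nat.card (Subgroup.centralizer ({y} : Set G))).factorization p - degExp p ξ₀ = d := by
    rw [← blockDefect_eq he₀, hbd]
  set φ := ((coprimeResidues (p ^ K)).card : ℝ) with hφ
  have hφ0 : 0 < φ := Nat.cast_pos.2 (coprimeResidues_card_pos hN)
  set P := fun (j : ℕ) (χ : IrrCharacter G) =>
    (aeval (zetaRoot (p ^ K) ^ j) (contribPoly p (p ^ K) y b (degExp p ξ₀) χ χ)).re with hP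
  have hrow : ∀ χ ∈ S, φ * S.card ≤ (p : ℝ) ^ d * ∑ j ∈ coprimeResidues (p ^ K), P j χ := by
    intro χ hχ
    have h := card_mul_le_sum_re hM hx hind h₀ hmin₀ (K := K) (hK ▸ dvd_rfl) S hS' hχ
    rwa [hd'] at h
  have hpos : ∀ j ∈ coprimeResidues (p ^ K), ∀ χ : IrrCharacter G, 0 ≤ P j χ := by
    intro j hj χ
    have h := sum_normSq_contrib hM hx hind.1 hN (hK ▸ dvd_rfl) hmin₀ (Finset.mem_filter.1 hj).2 χ
    rw [hd'] at h
    exact nonneg_of_mul_nonneg_right (h ▸ Finset.sum_nonneg fun _ _ => by positivity)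
      (pow_pos (Nat.cast_pos.2 hM.1.pos) _)
  have htot : ∀ j ∈ coprimeResidues (p ^ K), ∑ χ : IrrCharacter G, P j χ = (p : ℝ) ^ d * blockRank p b := by
    intro j hj
    have h := congrArg Complex.re (sum_contrib_diag hM hx hind.1 hN (hK ▸ dvd_rfl) hmin₀ (Finset.mem_filter.1 hj).2)
    rw [hd', Complex.re_sum] at h
    rw [h, show ((p : ℂ) ^ d * (blockRank p b : ℕ)) = (((p : ℝ) ^ d * blockRank p b : ℝ) : ℂ) by push_cast; rfl,
      Complex.ofReal_re]
  have h1 : φ * S.card * S.card ≤ φ * ((p : ℝ) ^ d * ((p : ℝ) ^ d * blockRank p b)) := by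
    calc φ * S.card * S.card = ∑ χ ∈ S, φ * S.card := by rw [Finset.sum_const, nsmul_eq_mul]; ring
      _ ≤ ∑ χ ∈ S, (p : ℝ) ^ d * ∑ j ∈ coprimeResidues (p ^ K), P j χ := Finset.sum_le_sum hrow
      _ = (p : ℝ) ^ d * ∑ j ∈ coprimeResidues (p ^ K), ∑ χ ∈ S, P j χ := by
        rw [← Finset.mul_sum, Finset.sum_comm]
      _ ≤ (p : ℝ) ^ d * ∑ j ∈ coprimeResidues (p ^ K), ((p : ℝ) ^ d * blockRank p b) := by
        refine mul_le_mul_of_nonneg_left (Finset.sum_le_sum fun j hj => ?_) (by positivity)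
        rw [← htot j hj]
        exact Finset.sum_le_sum_of_subset_of_nonneg (Finset.subset_univ _) fun χ _ _ => hpos j hj χ
      _ = _ := by rw [Finset.sum_const, nsmul_eq_mul, hφ]; ring
  rw [mul_assoc] at h1
  have h2 := le_of_mul_le_mul_left h1 hφ0
  have hcard : Nat.card B = S.card := by
    rw [hS, ← Fintype.card_coe, ← Nat.card_eq_fintype_card]
    exact Nat.card_congr (Equiv.subtypeEquivRight fun _ => mem_memFinset.symm)
  rw [hcard]
  have h3 : ((S.card ^ 2 : ℕ) : ℝ) ≤ ((p ^ (2 * d) * blockRank p b : ℕ) : ℝ) := by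
    push_cast
    rw [pow_two, two_mul, pow_add, mul_assoc]
    exact h2
  exact_mod_cast h3

/-- The bound of Brauer and Feit. -/
theorem card_le (hM : IsPModular p M) : ∀ (d : ℕ) (G : Type u) [Group G] [Finite G] (B : Set (IrrCharacter G)),
    IsPBlock M B → blockDefect p B = d →
      (d ≤ 2 → Nat.card B ≤ p ^ d) ∧ (3 ≤ d → Nat.card B ≤ p ^ (2 * d - 2)) := by
  intro d
  induction d using Nat.strong_induction_on with
  | _ d ih =>
    intro G _ _ B hB hd
    classical
    haveI : Fintype G := Fintype.ofFinite G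
    haveI : Fintype (IrrCharacter G) := @Fintype.ofFinite _ finite_irrCharacter
    haveI := Fact.mk hM.1
    rcases Nat.eq_zero_or_pos d with rfl | hd0
    · refine ⟨fun _ => ?_, fun h => absurd h (by omega)⟩
      haveI : Subsingleton B := ⟨fun a c => Subtype.ext (subsingleton_of_defect_zero hM hB hd a.2 c.2)⟩
      rw [pow_zero]
      exact Finite.card_le_one_iff_subsingleton.2 inferInstance
    by_cases hpos : ∃ χ ∈ B, 0 < blockHeight p B (χ : G → ℂ)
    · refine ⟨fun h2 => ?_, fun _ => ?_⟩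
      · obtain ⟨χ, hχ, hp⟩ := hpos
        obtain ⟨ha, hb⟩ := (height_bounds hM hB).2 χ hχ
        rw [hd] at ha hb
        by_cases h1 : d ≤ 1
        · have := ha h1; omega
        · have := hb (by omega); omega
      · have h := (height_bounds hM hB).1 hpos
        rw [hd] at h
        omega
    push Not at hpos
    have hh : ∀ χ ∈ B, blockHeight p B (χ : G → ℂ) = 0 := fun χ hχ => Nat.eq_zero_of_le_zero (hpos χ hχ)
    obtain ⟨g, hg⟩ := exists_defectClass hM hB
    obtain ⟨P⟩ : Nonempty (Sylow p (Subgroup.centralizer ({g} : Set G))) := inferInstance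
    set D := (P : Subgroup (Subgroup.centralizer ({g} : Set G))).map (Subgroup.centralizer ({g} : Set G)).subtype with hD'
    have hD : IsDefectGroup p M B D := ⟨g, hg, P, rfl⟩
    have hDp : IsPGroup p D := isPGroup_of_isDefectGroup hD
    have hDcard := card_defectGroup hM hB hD
    rw [hd] at hDcard
    haveI : Nontrivial D := Finite.one_lt_card_iff_nontrivial.1
      (hDcard ▸ Nat.one_lt_pow hd0.ne' hM.1.one_lt)
    haveI := hDp.center_nontrivial
    have hdvd : p ∣ Nat.card (Subgroup.center D) := by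
      obtain ⟨n, hn⟩ := IsPGroup.iff_card.1 (hDp.to_subgroup (Subgroup.center D))
      have h1 : 1 < Nat.card (Subgroup.center D) := Finite.one_lt_card
      rw [hn] at h1 ⊢
      rcases Nat.eq_zero_or_pos n with rfl | hn0
      · simp at h1
      · exact dvd_pow_self p hn0.ne'
    obtain ⟨z, hz⟩ := exists_prime_orderOf_dvd_card' p hdvd
    set y : G := ((z : D) : G) with hy
    have hord : orderOf y = p := by rw [hy, Subgroup.orderOf_coe, Subgroup.orderOf_coe]; exact hz
    have hyD : y ∈ D := (z : D).2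
    have hDH : D ≤ Subgroup.centralizer ({y} : Set G) := fun w hw =>
      Subgroup.mem_centralizer_singleton_iff.2 (congrArg Subtype.val (Subgroup.mem_center_iff.1 z.2 ⟨w, hw⟩))
    haveI : Fintype (Subgroup.centralizer ({y} : Set G)) := Fintype.ofFinite _
    have hQ : IsPGroup p (Subgroup.zpowers y) := ZStar.isPGroup_zpowers hM.1 ⟨1, by rw [hord, pow_one]⟩
    obtain ⟨b, hind, hge⟩ := exists_inducing_defect_ge hM hQ (ZStar.mem_centralizer_zpowers y) hB hD
      ((Subgroup.zpowers_le).2 hyD) hDH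
    have hbd : blockDefect p b = d := le_antisymm (hd ▸ blockDefect_le_induced hM hind) (hd ▸ hge)
    set y' : Subgroup.centralizer ({y} : Set G) := ⟨y, Subgroup.mem_centralizer_singleton_iff.2 rfl⟩ with hy'
    have hy'c : y' ∈ Subgroup.center (Subgroup.centralizer ({y} : Set G)) :=
      Subgroup.mem_center_iff.2 fun c => Subtype.ext (Subgroup.mem_centralizer_singleton_iff.1 c.2)
    have hord' : orderOf y' = p := by rw [hy', ← Subgroup.orderOf_coe]; exact hord
    have hne : (trivSet b y').Nonempty := by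
      obtain ⟨η, hη⟩ := IsPBlock.nonempty hM hind.1
      by_contra hemp
      have h := congrFun (regularPart_central hM hy'c hord' hind.1 hη) 1
      rw [Finset.not_nonempty_iff_eq_empty.1 hemp, Finset.sum_empty, pRegularPart_apply, orderOf_one,
        if_neg hM.1.not_dvd_one] at h
      exact apply_one_ne_zero η.2 h
    haveI : (Subgroup.zpowers y').Normal := ⟨fun w hw g => by
      rw [Subgroup.mem_center_iff.1 ((Subgroup.zpowers_le).2 hy'c hw) g, mul_inv_cancel_right]
      exact hw⟩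
    obtain ⟨c, hcb, hcd, hT⟩ := exists_quotient_block hM hy'c hord' hind.1 hne
    rw [hbd] at hcd
    have hlc : blockRank p b ≤ Nat.card c := (blockRank_le_trivSet hM hy'c hord' hind.1).trans hT
    obtain ⟨ih1, ih2⟩ := ih _ (by omega) _ c hcb rfl
    have hsq := card_sq_le hM ⟨1, by rw [hord, pow_one]⟩ hind hbd hh
    refine ⟨fun h2 => ?_, fun h3 => ?_⟩
    · by_cases hl : blockRank p b ≤ 1
      · refine (Nat.pow_le_pow_iff_left two_ne_zero).1 (hsq.trans ?_)
        rw [← pow_mul, mul_comm d 2]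
        exact (Nat.mul_le_mul_left _ hl).trans_eq (mul_one _)
      · have hd2 : d = 2 := by
          by_contra hne2
          have := ih1 (by omega)
          rw [show blockDefect p c = 0 by omega, pow_zero] at this
          omega
        subst hd2
        exact card_le_of_two hM hord hind hd hbd hh (by omega)
    · have hl : blockRank p b ≤ p ^ (2 * d - 4) := by
        refine hlc.trans ?_
        by_cases h2 : blockDefect p c ≤ 2
        · exact (ih1 h2).trans (Nat.pow_le_pow_right hM.1.pos (by omega))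
        · exact (ih2 (by omega)).trans (Nat.pow_le_pow_right hM.1.pos (by omega))
      refine (Nat.pow_le_pow_iff_left two_ne_zero).1 (hsq.trans ((Nat.mul_le_mul_left _ hl).trans_eq ?_))
      rw [← pow_add, ← pow_mul]
      congr 1
      omega

end CfsgLib.BrauerFeit
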