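import Cfsg.Agent.Blocks.Star.Global

/-!
# The product with a stable virtual character of the defect group has local multiplicities

The proof is that of the same statement for functions of absolute value one, which is not used in it.
-/

set_option autoImplicit false
set_option linter.unusedSectionVars false
set_option linter.style.haveILetI false

namespace CfsgLib.BrauerFeit

open Cfsg CfsgLib CfsgLib.Blocks CfsgLib.CharBasics CfsgLib.PairAlg CfsgLib.NilBlock CfsgLib.Star Polynomial
open scoped ComplexConjugate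

attribute [local instance] CfsgLib.Blocks.residueField CfsgLib.Blocks.residue_charP

universe u

variable {p : ℕ} [Fact p.Prime] {M : Ideal AlgInt} {G : Type u} [Group G] [Fintype G] (hM : IsPModular p M)

noncomputable local instance instFintypeSubgroupStarVirtual (K : Subgroup G) : Fintype K := Fintype.ofFinite K

variable {P : Subgroup G} {e : Set (IrrCharacter (Subgroup.centralizer (P : Set G)))} {η : G → ℂ}
  {B : Set (IrrCharacter G)} (hint : ∀ x, MemLocalRing M (η x)) (hst : Stable hM P e η)
  (hro : ∀ (Q : Subgroup G) (g : G), cm g Q ≤ P → RO M Q fun u => η (g * u * g⁻¹))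
  (hmax : IsMaximalBrauerPair p M B P e) (hB : IsPBlock M B) {χ : IrrCharacter G} (hχ : χ ∈ B)
include hint hst hro hmax hB hχ

/-- The multiplicities are local integers. -/
theorem memLocalRing_inner_of_stable (ψ : IrrCharacter G) : MemLocalRing M (classInner (star hM P e η χ) (ψ : G → ℂ)) := by
  classical
  have hp := (Fact.out : p.Prime)
  set f := star hM P e η χ with hfdef
  have hfc : IsClassFunction G f := star_isClassFunction hM hst χ
  let S : AddSubgroup (G → ℂ) :=
    { carrier := {θ | MemLocalRing M (classInner θ (ψ : G → ℂ))}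
      zero_mem' := by simp [classInner_eq, memLocalRing_zero hM]
      add_mem' := fun {a b} ha hb => by simp only [Set.mem_setOf_eq, classInner_add_left] at *; exact memLocalRing_add hM ha hb
      neg_mem' := fun {a} ha => by
        have : classInner (-a) (ψ : G → ℂ) = -classInner a (ψ : G → ℂ) := by simp [classInner_eq]
        simp only [Set.mem_setOf_eq, this] at *
        exact memLocalRing_neg ha }
  suffices h : ∀ (E : Subgroup G) (l : E →* ℂˣ), BrauerInd.IsElem E →
      Cfsg.indFun E (fun a : E => f a * (l a : ℂ)) ∈ S by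
    have := BrauerInd.mul_mem_of_forall hfc S h (BrauerInd.isCharacter_mem_monomialSpan (isCharacter_of_irr isIrrCharacter_one))
    rw [show f * (fun _ => 1 : G → ℂ) = f from mul_one f] at this
    exact this
  intro E l hE
  show MemLocalRing M (classInner _ _)
  rw [CharBasics.classInner_indFun E _ (isClassFunction (isCharacter_of_irr ψ.2))]
  obtain ⟨hsyl, hcomm⟩ := elementary_parts (p := p) hE
  set θ : E → ℂ := fun a => (l a : ℂ) * conj ((ψ : G → ℂ) a) with hθ
  have hθc : IsCharacter E θ :=
    isCharacter_mul (BrauerInd.isCharacter_linear l) (isCharacter_star (isCharacter_restrict (isCharacter_of_irr ψ.2) E))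
  have e0 : classInner (fun a : E => f a * (l a : ℂ)) (fun a : E => (ψ : G → ℂ) a) =
      (Nat.card E : ℂ)⁻¹ * ∑ a : E, f a * θ a := by
    rw [classInner_eq]
    congr 1
    exact Finset.sum_congr rfl fun a _ => by rw [hθ]; ring
  rw [e0]
  obtain ⟨S₀⟩ : Nonempty (Sylow p E) := inferInstance
  set Q : Subgroup E := (S₀ : Subgroup E) with hQdef
  have hQp : IsPGroup p Q := S₀.isPGroup'
  set R := Finset.univ.filter fun y : E => ¬ p ∣ orderOf y with hR
  obtain ⟨pe, hpe⟩ := exists_pp (G := E) hp
  -- every element is uniquely a product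
  have hbij : ∀ F : E → ℂ, ∑ a : E, F a = ∑ y ∈ R, ∑ v : Q, F ((v : E) * y) := by
    intro F
    rw [Finset.sum_sigma' R (fun _ => Finset.univ)]
    refine (Finset.sum_bij' (fun a _ => (⟨(pe a)⁻¹ * a, ⟨pe a, hsyl S₀ _ (hpe a).choose_spec.2.2.1⟩⟩ : Σ _ : E, Q))
      (fun x _ => (x.2 : E) * x.1) (fun a _ => ?_) (fun _ _ => Finset.mem_univ _) (fun a _ => by simp)
      (fun x hx => ?_) (fun a _ => by simp))
    · obtain ⟨y, hy, -, -, hyr⟩ := hpe a
      simp only [Finset.mem_sigma, Finset.mem_univ, and_true, hR, Finset.mem_filter, true_and]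
      rwa [inv_mul_eq_iff_eq_mul.2 hy.symm]
    · obtain ⟨y, v⟩ := x
      simp only [Finset.mem_sigma, Finset.mem_univ, and_true, hR, Finset.mem_filter, true_and] at hx
      obtain ⟨k, hk⟩ := IsPGroup.iff_orderOf.1 hQp v
      rw [← Subgroup.orderOf_coe] at hk
      have h : pe ((v : E) * y) = v := isPPart_unique hp (hpe _) ⟨y, rfl, hcomm _ _ ⟨k, hk⟩ hx, ⟨k, hk⟩, hx⟩
      simp [h]
  have hRcard : Nat.card E = R.card * Nat.card Q := by
    have := hbij fun _ => 1
    simp only [Finset.sum_const, Finset.card_univ, nsmul_eq_mul, mul_one, ← Nat.card_eq_fintype_card] at this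
    exact_mod_cast this
  have hRp : ¬ p ∣ R.card := by
    intro hd
    have h1 := S₀.not_dvd_index
    have h2 := Subgroup.card_mul_index Q
    rw [hRcard, mul_comm R.card] at h2
    rw [Nat.eq_of_mul_eq_mul_left Nat.card_pos h2] at h1
    exact h1 hd
  rw [hbij (fun a => f a * θ a), hRcard, Nat.cast_mul, mul_inv, mul_assoc, Finset.mul_sum]
  refine memLocalRing_mul hM (memLocalRing_natCast_inv hM hRp) (memLocalRing_sum hM _ fun y hy => ?_)
  have hyr : ¬ p ∣ orderOf y := (Finset.mem_filter.1 hy).2
  set Q' : Subgroup G := Q.map E.subtype with hQ'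
  have hQ'p : IsPGroup p Q' := hQp.map _
  have hyC : (y : G) ∈ Subgroup.centralizer (Q' : Set G) := by
    refine Subgroup.mem_centralizer_iff.2 ?_
    rintro _ ⟨v, hv, rfl⟩
    obtain ⟨k, hk⟩ := IsPGroup.iff_orderOf.1 hQp ⟨v, hv⟩
    rw [Subgroup.orderOf_mk] at hk
    exact congrArg Subtype.val (hcomm v y ⟨k, hk⟩ hyr).eq
  have hyo : ¬ p ∣ orderOf (y : G) := by rwa [Subgroup.orderOf_coe]
  set m := (Nat.card Q').factorization p with hm
  have hcardQ : Nat.card Q' = p ^ m := by
    obtain ⟨j, hj⟩ := hQ'p.exists_card_eq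
    rw [hm, hj, Nat.factorization_pow, Finsupp.smul_apply, hp.factorization_self, smul_eq_mul, mul_one]
  have hone : ∀ x : G, cj x (1 : MonoidAlgebra ℂ G) = 1 := fun x => map_one _
  have hup1 : upG hM (1 : MonoidAlgebra ℂ G) = 1 := up_one hM (MonoidHom.id G)
  obtain ⟨n₀, hn₀⟩ := good_all hM χ hint hst hmax hro hyo (Nat.card Q') Q' rfl hQ'p hyC 1
    (isIntegralElt_one hM) (fix_one Q') (hone _) (by rw [hup1, mul_one]) m
  obtain ⟨g, hg, hgd⟩ := hn₀ n₀ le_rfl
  have hfy : ∀ v : Q', f ((v : G) * y) = Phi hM P e η χ n₀ 1 v (y : G) := by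
    intro v
    obtain ⟨k, hk⟩ := IsPGroup.iff_orderOf.1 hQ'p v
    rw [hfdef, star_mul hM χ ⟨k, by rwa [Subgroup.orderOf_coe]⟩ (Subgroup.mem_centralizer_iff.1 hyC _ v.2) hyo]
    simp only [Phi, ZStar.res_one, one_pow]
  have hF : RO M Q' fun v => f ((v : G) * y) := by
    have hcls : IsClassFunction Q' fun v => f ((v : G) * y) := fun a c => by
      show f ((c * a * c⁻¹ : Q') * (y : G)) = f ((a : G) * (y : G))
      rw [← hfc ((a : G) * y) (c : G)]
      refine congrArg f ?_
      push_cast
      have hcy : Commute (c : G) (y : G) := Subgroup.mem_centralizer_iff.1 hyC _ c.2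
      rw [mul_assoc _ _ (y : G), hcy.inv_left.eq]
      group
    have hd : RO M Q' ((fun v : Q' => f ((v : G) * y)) + (-1 : ℂ) • g) := ro_of_pdiv hM
      (fun a c => congrArg₂ (fun s t : ℂ => s + (-1) * t) (hcls a c) (hg.1 a c)) (m := m) (by rw [hcardQ])
      (fun v => by
        show PDiv p M m (f ((v : G) * y) + (-1 : ℂ) * g v)
        rw [hfy, neg_one_mul, ← sub_eq_add_neg]
        exact hgd v)
    have := RO.sum hM Finset.univ (fun i : Bool => bif i then g else (fun v : Q' => f ((v : G) * y)) + (-1 : ℂ) • g)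
      (fun i _ => by cases i; exacts [hd, hg])
    convert this using 1
    funext v
    simp only [Fintype.sum_bool, cond_true, cond_false, Pi.add_apply, Pi.smul_apply, smul_eq_mul]
    ring
  obtain ⟨n, ρ, hρ⟩ := id hθc
  have hθQ : RO M Q' fun v => θ (⟨v, Subgroup.map_subtype_le _ v.2⟩ * y) := by
    have hw : ∀ a : E, MemLocalRing M ((MonoidAlgebra.single y (1 : ℂ)).coeff a) := isIntegralElt_single hM y
    have h := ro_apply_mul (P := Q) hM hθc hw (fun v hv a => by
      obtain ⟨k, hk⟩ := IsPGroup.iff_orderOf.1 hQp ⟨v, hv⟩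
      rw [Subgroup.orderOf_mk] at hk
      have hvy : v * y = y * v := (hcomm v y ⟨k, hk⟩ hyr).eq
      simp only [MonoidAlgebra.coeff_single, Finsupp.single_apply, eq_comm (a := y)]
      exact if_congr ⟨fun h => mul_left_cancel (a := v) ((mul_inv_eq_iff_eq_mul.1 h).trans hvy.symm),
        fun h => by rw [h, hvy, mul_inv_cancel_right]⟩ rfl rfl)
    set iso : Q ≃* Q' := Q.equivMapOfInjective E.subtype E.subtype_injective with hiso
    have hh : ∀ v : Q, (∑ a : E, (MonoidAlgebra.single y (1 : ℂ)).coeff a * θ ((v : E) * a)) = θ ((v : E) * y) := fun v => by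
      simp [MonoidAlgebra.coeff_single, Finsupp.single_apply]
    refine ⟨fun a c => ?_, fun φ => ?_⟩
    · have := h.1 (iso.symm a) (iso.symm c)
      beta_reduce at this
      rw [hh, hh] at this
      obtain ⟨a', rfl⟩ := iso.surjective a
      obtain ⟨c', rfl⟩ := iso.surjective c
      simp only [MulEquiv.symm_apply_apply] at this
      exact this
    · have h2 := h.2 (pushChar iso.symm φ)
      rw [classInner_eq] at h2 ⊢
      rw [← Nat.card_congr iso.toEquiv]
      convert h2 using 2
      refine (Fintype.sum_equiv iso.toEquiv _ _ fun v => ?_).symm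
      rw [hh, pushChar_apply, MulEquiv.symm_symm]
      rfl
  haveI : Fintype (IrrCharacter Q') := @Fintype.ofFinite _ finite_irrCharacter
  have h3 := (hF.mul hM hθQ).2 ⟨fun _ => 1, isIrrCharacter_one⟩
  rw [classInner_eq] at h3
  convert h3 using 1
  set iso : Q ≃* Q' := Q.equivMapOfInjective E.subtype E.subtype_injective with hiso
  rw [← Nat.card_congr iso.toEquiv]
  congr 1
  refine Fintype.sum_equiv iso.toEquiv _ _ fun v => ?_
  simp only [map_one, mul_one, Pi.mul_apply]
  rfl


end CfsgLib.BrauerFeit
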